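import Cfsg.Agent.H885.Nondeg

/-!
Maximality in `E Q = Ω(Q)` of the stabiliser of a nondegenerate subspace when the complement `U` has dimension at
least four (so also `2 ⊥ 5`, `3 ⊥ 5`, `4 ⊥ 5`, `5 ⊥ 5`, `3 ⊥ 4`, `4 ⊥ 4`), over a field with at least three elements.
-/

set_option autoImplicit false

namespace Cfsg.Agent.H916.LowNondeg

open QuadraticMap hiding proj
open Cfsg.Agent.LieClassical.OrthCore Cfsg.Agent.LieClassical.OrthTrans
  Cfsg.Agent.LieClassical.OrthFinite Cfsg.Agent.LieClassical.OrthSimple Cfsg.Agent.H885.RootT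
  Cfsg.Agent.H885.Irr Cfsg.Agent.H885.Nondeg Cfsg.Agent.H883.Bridge

variable {F V : Type*} [Field F] [AddCommGroup V] [Module F V] {Q : QuadraticForm F V}

/-! ### Nondegenerate subspaces -/

/-- A hyperbolic partner inside a nondegenerate subspace. -/
theorem exists_partner {U : Submodule F V} (hU : NdOn Q U) {a : V} (ha : a ∈ U) (ha0 : a ≠ 0)
    (hQa : Q a = 0) : ∃ a' ∈ U, Hyp Q a a' := by
  obtain ⟨y, hy, hay⟩ := hU.exists_ne ha ha0
  refine ⟨(polar Q a y)⁻¹ • y - ((polar Q a y)⁻¹ * (polar Q a y)⁻¹ * Q y) • a,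
    U.sub_mem (U.smul_mem _ hy) (U.smul_mem _ ha), hQa, ?_, ?_⟩
  · rw [sub_eq_add_neg, Q_add, QuadraticMap.map_neg, QuadraticMap.map_smul, QuadraticMap.map_smul,
      polar_neg_right, polar_smul_left, polar_smul_right, polar_comm Q y a, hQa]
    simp only [smul_eq_mul]
    field_simp
    ring
  · rw [polar_sub_right, polar_smul_right, polar_smul_right, polar_self_of_sing hQa, smul_eq_mul,
      inv_mul_cancel₀ hay]
    simp

/-- A form on a nondegenerate subspace of dimension at least two over a finite field represents every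
element. -/
theorem exists_norm_two [Finite F] {S : Submodule F V} (hS : 2 ≤ Module.finrank F S)
    (hnd : NdOn Q S) (c : F) : ∃ v ∈ S, Q v = c := by
  have : Module.Finite F S := Module.finite_of_finrank_pos (by omega)
  let bs := Module.finBasis F S
  let v : Fin 2 → S := fun i => bs (Fin.castLE hS i)
  have hv : LinearIndependent F v := bs.linearIndependent.comp _ (Fin.castLE_injective hS)
  obtain ⟨x, hx0, hx⟩ := exists_ternary_zero (Q (v 0 : V)) (Q (v 1 : V)) (-c)
    (polar Q (v 0 : V) (v 1 : V)) 0 0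
  set s : V := x 0 • (v 0 : V) + x 1 • (v 1 : V) with hs
  have hsS : s ∈ S := S.add_mem (S.smul_mem _ (v 0).2) (S.smul_mem _ (v 1).2)
  have hQs : Q s = c * x 2 ^ 2 := by
    rw [hs, Q_add, QuadraticMap.map_smul, QuadraticMap.map_smul, polar_smul_left, polar_smul_right]
    simp only [smul_eq_mul]
    linear_combination hx
  by_cases h2 : x 2 = 0
  · have hs0 : s ≠ 0 := by
      intro h0
      apply hx0
      have h1 : (∑ i, (fun j : Fin 2 => x (Fin.castLE (by norm_num) j)) i • v i : S) = 0 := by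
        apply Subtype.ext
        rw [Fin.sum_univ_two]
        exact h0
      have h3 := Fintype.linearIndependent_iff.1 hv _ h1
      funext i
      fin_cases i
      · exact h3 0
      · exact h3 1
      · exact h2
    have hQs0 : Q s = 0 := by rw [hQs, h2]; ring
    obtain ⟨t, ht, hst⟩ := exists_partner hnd hsS hs0 hQs0
    refine ⟨t + c • s, S.add_mem ht (S.smul_mem _ hsS), ?_⟩
    rw [Q_add, QuadraticMap.map_smul, hst.right, hst.left, polar_smul_right, hst.pair']
    simp
  · refine ⟨(x 2)⁻¹ • s, S.smul_mem _ hsS, ?_⟩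
    rw [QuadraticMap.map_smul, hQs, smul_eq_mul]
    field_simp

/-- The vectors of `U` orthogonal to the pair `a, a'`. -/
def cpIn (Q : QuadraticForm F V) (U : Submodule F V) (a a' : V) : Submodule F V :=
  U ⊓ LinearMap.ker (polarBilin Q a) ⊓ LinearMap.ker (polarBilin Q a')

theorem mem_cpIn {U : Submodule F V} {a a' v : V} :
    v ∈ cpIn Q U a a' ↔ v ∈ U ∧ polar Q a v = 0 ∧ polar Q a' v = 0 := by
  simp only [cpIn, Submodule.mem_inf, LinearMap.mem_ker]
  exact and_assoc

/-- Projection to the complement of a hyperbolic pair. -/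
theorem proj_mem_cpIn {U : Submodule F V} {a a' : V} (ha : a ∈ U) (ha' : a' ∈ U) (h : Hyp Q a a')
    {v : V} (hv : v ∈ U) : proj Q a a' v ∈ cpIn Q U a a' := by
  refine mem_cpIn.2 ⟨?_, polar_proj_left h v, polar_proj_right h v⟩
  rw [proj]
  exact U.sub_mem (U.sub_mem hv (U.smul_mem _ ha)) (U.smul_mem _ ha')

theorem ndOn_cpIn {U : Submodule F V} (hU : NdOn Q U) {a a' : V} (ha : a ∈ U) (ha' : a' ∈ U)
    (h : Hyp Q a a') : NdOn Q (cpIn Q U a a') := by
  intro v hv hv'
  obtain ⟨hvU, h1, h2⟩ := mem_cpIn.1 hv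
  apply hU v hvU
  intro z hz
  have h3 := hv' _ (proj_mem_cpIn ha ha' h hz)
  rwa [polar_proj_of_perp h1 h2] at h3

theorem finrank_cpIn [Module.Finite F V] (U : Submodule F V) (a a' : V) :
    Module.finrank F U ≤ Module.finrank F (cpIn Q U a a') + 2 := by
  let f : U →ₗ[F] (Fin 2 → F) := LinearMap.pi fun i => (polarBilin Q (![a, a'] i)).comp U.subtype
  have h1 := LinearMap.finrank_range_add_finrank_ker f
  have h2 : Module.finrank F (LinearMap.range f) ≤ 2 := by
    refine le_trans (Submodule.finrank_le _) ?_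
    rw [Module.finrank_fin_fun]
  have h3 : Module.finrank F (LinearMap.ker f) = Module.finrank F ((LinearMap.ker f).map U.subtype) :=
    (Submodule.finrank_map_subtype_eq U _).symm
  have h4 : (LinearMap.ker f).map U.subtype ≤ cpIn Q U a a' := by
    rintro _ ⟨v, hv, rfl⟩
    have h5 := LinearMap.mem_ker.1 hv
    refine mem_cpIn.2 ⟨v.2, ?_, ?_⟩
    · have := congrFun h5 0
      simpa [f] using this
    · have := congrFun h5 1
      simpa [f] using this
  have h5 := Submodule.finrank_mono h4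
  omega

variable {W U : Submodule F V}

/-- A nondegenerate subspace of dimension at least four represents every element on the vectors orthogonal
to a given singular vector. -/
theorem exists_norm_perp [Finite F] [Module.Finite F V] (hU : NdOn Q U)
    (hd : 4 ≤ Module.finrank F U) {a : V} (ha : a ∈ U) (ha0 : a ≠ 0) (hQa : Q a = 0) (c : F) :
    ∃ v ∈ U, polar Q a v = 0 ∧ Q v = c := by
  obtain ⟨a', ha', h⟩ := exists_partner hU ha ha0 hQa
  have h1 := finrank_cpIn (Q := Q) U a a'
  obtain ⟨v, hv, hQv⟩ := exists_norm_two (S := cpIn Q U a a') (by omega) (ndOn_cpIn hU ha ha' h) c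
  exact ⟨v, (mem_cpIn.1 hv).1, (mem_cpIn.1 hv).2.1, hQv⟩

/-- A nondegenerate subspace containing a nonzero singular vector is spanned by its singular vectors. -/
theorem le_of_sing' (hU : NdOn Q U) {a : V} (ha : a ∈ U) (ha0 : a ≠ 0) (hQa : Q a = 0)
    {S : Submodule F V} (h : ∀ x ∈ U, Q x = 0 → x ∈ S) : U ≤ S := by
  obtain ⟨a', ha', hyp⟩ := exists_partner hU ha ha0 hQa
  intro v hv
  have h1 := mem_cpIn.1 (proj_mem_cpIn ha ha' hyp hv)
  set u := proj Q a a' v with hu
  have h2 : a' + u - Q u • a ∈ S := by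
    refine h _ (U.sub_mem (U.add_mem ha' h1.1) (U.smul_mem _ ha)) ?_
    rw [sub_eq_add_neg, Q_add, Q_add, QuadraticMap.map_neg, polar_neg_right, polar_smul_right,
      polar_add_left, QuadraticMap.map_smul, hyp.right, hyp.left, h1.2.2, hyp.pair',
      polar_comm Q u a, h1.2.1]
    simp
  have h3 : u ∈ S := by
    have h4 := S.sub_mem (S.add_mem h2 (S.smul_mem (Q u) (h a ha hQa))) (h a' ha' hyp.right)
    have e : a' + u - Q u • a + Q u • a - a' = u := by abel
    rwa [e] at h4
  have h4 := S.add_mem (S.add_mem h3 (S.smul_mem (polar Q a v) (h a' ha' hyp.right)))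
    (S.smul_mem (polar Q a' v) (h a ha hQa))
  have e : u + polar Q a v • a' + polar Q a' v • a = v := by rw [hu, proj]; abel
  rwa [e] at h4

/-- **Step A.** If `T_a(M) ∩ W ≠ 0` for a nonzero singular `a ∈ U` then `M = E Q`. -/
theorem E_le_of_mem_T' [Finite F] [Module.Finite F V] (h : Split Q W U) (hG : Good Q)
    (hU : 4 ≤ Module.finrank F U)
    (hex : ¬ (Nat.card F ≤ 3 ∧ Module.finrank F W = 2 ∧ ∃ x ∈ W, x ≠ 0 ∧ Q x = 0))
    {M : Subgroup (V ≃ₗ[F] V)} (hM : stab W ⊓ E Q ≤ M) (hMO : M ≤ O Q) {a w : V} (ha : a ∈ U)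
    (ha0 : a ≠ 0) (hQa : Q a = 0) (hw : w ∈ W) (hw0 : w ≠ 0) (hwT : w ∈ T M Q a hQa) :
    E Q ≤ M := by
  have hUn : NdOn Q U := h.ndOn_right hG.nondeg
  have hZ : T M Q a hQa ⊓ W = W := by
    refine irr_sub inf_le_right (h.ndOn_left hG.nondeg) ?_ ?_ ?_ hex
    · intro hb
      have : w ∈ T M Q a hQa ⊓ W := ⟨hwT, hw⟩
      rw [hb, Submodule.mem_bot] at this
      exact hw0 this
    · rintro v hv hQv z ⟨hz1, hz2⟩
      obtain ⟨v', hv', hav', hQv'⟩ := exists_norm_perp hUn hU ha ha0 hQa (Q v)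
      have hQv'0 : Q v' ≠ 0 := by rw [hQv']; exact hQv
      have hm := h.refl_mul_refl_mem hG hv hv' hQv hQv'0 hQv'
      have e1 : (refl Q v hQv * refl Q v' hQv'0) a = a := by
        show refl Q v hQv (refl Q v' hQv'0 a) = a
        have e0 : refl Q v' hQv'0 a = a := by
          rw [refl_apply, polar_comm Q v' a, hav']
          simp
        rw [e0, refl_apply, h.perp v hv a ha]
        simp
      have e2 : (refl Q v hQv * refl Q v' hQv'0) z = refl Q v hQv z := by
        show refl Q v hQv (refl Q v' hQv'0 z) = _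
        congr 1
        rw [refl_apply, h.perp' hv' hz2]
        simp
      refine ⟨?_, ?_⟩
      · have h3 := T_conj (hM hm) (hMO (hM hm)) hz1 (by rw [e1]; exact hQa)
        rw [e2] at h3
        show refl Q v hQv z ∈ T M Q a hQa
        simpa only [e1] using h3
      · rw [refl_apply]
        exact W.sub_mem hz2 (W.smul_mem _ hv)
    · rintro x hx y hy hQx hxy z ⟨hz1, hz2⟩
      have hm := (Split.SM_left (Q := Q) hx hy hQx hxy).mem hQx hxy
      have e1 : siegel Q x y hQx hxy a = a := by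
        rw [siegel_apply, h.perp x hx a ha, h.perp y hy a ha]
        simp
      refine ⟨?_, (hm.1 z).1 hz2⟩
      have h3 := T_conj (hM hm) (hMO (hM hm)) hz1 (by rw [e1]; exact hQa)
      show siegel Q x y hQx hxy z ∈ T M Q a hQa
      simpa only [e1] using h3
  have hfull : Full M Q a := by
    refine full_of_T_eq (hx := hQa) fun v hv => ?_
    obtain ⟨w', hw', u, hu, rfl⟩ := h.exists_add v
    have hau : polar Q a u = 0 := by
      rwa [polar_add_right, h.perp' ha hw', zero_add] at hv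
    have h1 : w' ∈ T M Q a hQa := by
      rw [← hZ] at hw'
      exact hw'.1
    exact Submodule.add_mem _ h1 (T_mono hM (h.mem_T_right ha hu hQa hau))
  obtain ⟨b, hbU, hb⟩ := exists_partner hUn ha ha0 hQa
  -- a Siegel transformation at `b` moving `a` to an opposite point
  have hfd := finrank_cpIn (Q := Q) U a b
  obtain ⟨v, hv, hQv⟩ := exists_norm_two (S := cpIn Q U a b) (by omega) (ndOn_cpIn hUn ha hbU hb) 1
  obtain ⟨hvU, hav, hbv⟩ := mem_cpIn.1 hv
  have hm := (h.SM_right hbU hvU hb.right hbv).mem hb.right hbv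
  have e : siegel Q b v hb.right hbv a = a + v - b := by
    rw [siegel_apply, hb.pair', polar_comm Q v a, hav, hQv]
    module
  have hfa := hfull.conj (hM hm) (hMO (hM hm))
  rw [e] at hfa
  refine E_le_of_full hG hMO hfull hfa ?_
  rw [polar_sub_right, polar_add_right, polar_self_of_sing hQa, hav, hb.pair]
  simp

/-! ### The main argument -/

/-- The image of `U`-singular vectors under a group containing `stab W ⊓ E Q`. -/
structure Setup (Q : QuadraticForm F V) (W U : Submodule F V) (M : Subgroup (V ≃ₗ[F] V)) : Prop where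
  split : Split Q W U
  nondeg : Nondeg Q
  hM : stab W ⊓ E Q ≤ M
  hMO : M ≤ O Q
  hd : 4 ≤ Module.finrank F U
  hT : ∀ (a w : V) (hQa : Q a = 0), a ∈ U → a ≠ 0 → w ∈ W → w ∈ T M Q a hQa → w = 0

variable {M : Subgroup (V ≃ₗ[F] V)}

theorem Setup.mem_U (S : Setup Q W U M) [Module.Finite F V] {a v : V} (hQa : Q a = 0) (ha : a ∈ U)
    (ha0 : a ≠ 0) (hv : v ∈ T M Q a hQa) : v ∈ U := by
  obtain ⟨w', hw', u, hu, rfl⟩ := S.split.exists_add v
  have hau : polar Q a u = 0 := by
    have := perp_of_mem_T hv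
    rwa [polar_add_right, S.split.perp' ha hw', zero_add] at this
  have h1 : u ∈ T M Q a hQa := T_mono S.hM (S.split.mem_T_right ha hu hQa hau)
  have h2 : w' ∈ T M Q a hQa := by
    have := Submodule.sub_mem _ hv h1
    rwa [add_sub_cancel_right] at this
  rw [S.hT a w' hQa ha ha0 hw' h2, zero_add]
  exact hu

theorem Setup.mem_T (S : Setup Q W U M) [Module.Finite F V] {a v : V} (hQa : Q a = 0) (ha : a ∈ U)
    (hv : v ∈ U) (hav : polar Q a v = 0) : v ∈ T M Q a hQa :=
  T_mono S.hM (S.split.mem_T_right ha hv hQa hav)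

/-- If `x' ∈ M U` is not in `U` and `a ∈ U` is singular, orthogonal to `x'`, then `a^⊥ ∩ U` is orthogonal to
`x'`. -/
theorem Setup.key1 (S : Setup Q W U M) [Module.Finite F V] (hq : ∃ c : F, c ≠ 0 ∧ c ≠ 1) {g : V ≃ₗ[F] V}
    (hg : g ∈ M) {x : V} (hx : x ∈ U) (hx0 : x ≠ 0) (hQx : Q x = 0) (hgx : g x ∉ U) {a : V}
    (ha : a ∈ U) (ha0 : a ≠ 0) (hQa : Q a = 0) (hxa : polar Q (g x) a = 0) {b : V} (hb : b ∈ U)
    (hab : polar Q a b = 0) : polar Q (g x) b = 0 := by
  by_contra hxb
  have hgO := S.hMO hg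
  have hUn : NdOn Q U := S.split.ndOn_right S.nondeg
  obtain ⟨x', hx', hyp⟩ := exists_partner hUn hx hx0 hQx
  obtain ⟨u, hu, hu0, hup⟩ := exists_mem_perp (Q := Q) ![x, x', g⁻¹ a] U (by have := S.hd; omega)
  have h1 : polar Q x u = 0 := hup 0
  have h2 : polar Q x' u = 0 := hup 1
  have h3 : polar Q (g u) a = 0 := by
    have h4 : polar Q (g⁻¹ a) u = 0 := hup 2
    have h5 : g (g⁻¹ a) = a := LinearEquiv.apply_symm_apply g a
    rw [← polar_map hgO, h5, polar_comm] at h4
    exact h4
  have hQgx : Q (g x) = 0 := by rw [mem_O.1 hgO]; exact hQx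
  have hvT : g u ∈ T M Q (g x) hQgx := T_conj hg hgO (S.mem_T hQx hx hu h1) hQgx
  have hxv : polar Q (g x) (g u) = 0 := perp_of_mem_T hvT
  -- the vectors `e_c`
  have hE : ∀ c : F, (polar Q (g x) b * c) • g u - (c * polar Q (g u) b) • g x -
      (c * c * Q (g u) * polar Q (g x) b) • g x ∈ U := by
    intro c
    obtain ⟨_, hp, hm⟩ := hvT c
    have e1 : siegel Q (g x) (c • g u) hQgx hp a = a := by
      rw [siegel_apply, hxa, polar_smul_left, h3]
      simp
    have e2 : siegel Q (g x) (c • g u) hQgx hp b = b + ((polar Q (g x) b * c) • g u -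
        (c * polar Q (g u) b) • g x - (c * c * Q (g u) * polar Q (g x) b) • g x) := by
      rw [siegel_apply, polar_smul_left, QuadraticMap.map_smul]
      simp only [smul_eq_mul]
      module
    have h6 := T_conj hm (S.hMO hm) (S.mem_T hQa ha hb hab) (by rw [e1]; exact hQa)
    rw [e2] at h6
    have h7 : b + ((polar Q (g x) b * c) • g u -
        (c * polar Q (g u) b) • g x - (c * c * Q (g u) * polar Q (g x) b) • g x) ∈
        T M Q a hQa := by simpa only [e1] using h6
    have h8 := U.sub_mem (S.mem_U hQa ha ha0 h7) hb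
    rwa [add_sub_cancel_left] at h8
  have hQv : Q (g u) = 0 := by
    obtain ⟨c, hc0, hc1⟩ := hq
    have h4 := U.sub_mem (U.smul_mem c (hE 1)) (hE c)
    have e : c • ((polar Q (g x) b * 1) • g u - (1 * polar Q (g u) b) • g x -
        (1 * 1 * Q (g u) * polar Q (g x) b) • g x) - ((polar Q (g x) b * c) • g u -
        (c * polar Q (g u) b) • g x - (c * c * Q (g u) * polar Q (g x) b) • g x) =
        ((c * (c - 1)) * (Q (g u) * polar Q (g x) b)) • g x := by module
    rw [e] at h4
    by_contra hne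
    have h5 : (c * (c - 1)) * (Q (g u) * polar Q (g x) b) ≠ 0 :=
      mul_ne_zero (mul_ne_zero hc0 (sub_ne_zero.2 hc1)) (mul_ne_zero hne hxb)
    exact hgx ((U.smul_mem_iff h5).1 h4)
  -- the line `⟨g x, g u⟩` meets `U`
  have h4 := hE 1
  rw [hQv, mul_zero, zero_mul, zero_smul, sub_zero, mul_one, one_mul] at h4
  set s := polar Q (g x) b • g u - polar Q (g u) b • g x with hs
  have hs0 : s ≠ 0 := by
    intro h0
    rw [hs, sub_eq_zero, ← map_smul, ← map_smul] at h0
    have h5 := g.injective h0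
    have h6 : polar Q x' (polar Q (g x) b • u) = polar Q x' (polar Q (g u) b • x) := by rw [h5]
    rw [polar_smul_right, polar_smul_right, h2, hyp.pair'] at h6
    simp only [smul_eq_mul, mul_zero, mul_one] at h6
    rw [← h6, zero_smul] at h5
    exact hu0 ((smul_eq_zero.1 h5).resolve_left hxb)
  have hsT : s ∈ T M Q (g x) hQgx :=
    Submodule.sub_mem _ (Submodule.smul_mem _ _ hvT) (Submodule.smul_mem _ _ (self_mem_T _))
  have hQs : Q s = 0 := by
    rw [hs, sub_eq_add_neg, Q_add, QuadraticMap.map_neg, polar_neg_right, QuadraticMap.map_smul,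
      QuadraticMap.map_smul, polar_smul_left, polar_smul_right, hQv, hQgx, polar_comm Q (g u) (g x), hxv]
    simp
  exact hgx (S.mem_U hQs h4 hs0 (T_symm hsT hQs))

/-- A vector of `U` orthogonal to `a^⊥ ∩ U` is a multiple of `a`. -/
theorem eq_smul_of_perp (hU : NdOn Q U) {a u : V} (ha : a ∈ U) (ha0 : a ≠ 0) (hQa : Q a = 0)
    (hu : u ∈ U) (h : ∀ b ∈ U, polar Q a b = 0 → polar Q u b = 0) : ∃ c : F, u = c • a := by
  obtain ⟨a', ha', hyp⟩ := exists_partner hU ha ha0 hQa
  refine ⟨polar Q u a', ?_⟩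
  rw [← sub_eq_zero]
  apply hU _ (U.sub_mem hu (U.smul_mem _ ha))
  intro y hy
  have h1 := h (y - polar Q a y • a') (U.sub_mem hy (U.smul_mem _ ha')) (by
    rw [polar_sub_right, polar_smul_right, hyp.pair]; simp)
  rw [polar_sub_right, polar_smul_right, smul_eq_mul, sub_eq_zero] at h1
  rw [polar_sub_left, polar_smul_left, smul_eq_mul, h1]
  ring

/-- The `U`-component of a vector in `M U` is singular. -/
theorem Setup.key2 (S : Setup Q W U M) [Finite F] [Module.Finite F V] (hq : ∃ c : F, c ≠ 0 ∧ c ≠ 1)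
    {g : V ≃ₗ[F] V} (hg : g ∈ M) {x : V} (hx : x ∈ U) (hx0 : x ≠ 0) (hQx : Q x = 0) {w u : V}
    (hw : w ∈ W) (hu : u ∈ U) (e : g x = w + u) : Q u = 0 := by
  have hUn : NdOn Q U := S.split.ndOn_right S.nondeg
  by_cases hgx : g x ∈ U
  · have h1 : w ∈ W ⊓ U := by
      refine ⟨hw, ?_⟩
      have := U.sub_mem hgx hu
      rwa [e, add_sub_cancel_right] at this
    rw [S.split.inf S.nondeg, Submodule.mem_bot] at h1
    rw [h1, zero_add] at e
    rw [← e, mem_O.1 (S.hMO hg)]
    exact hQx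
  · obtain ⟨a, ha, ha0, hQa, hap⟩ := exists_sing_mem_perp (Q := Q) ![g x] U (by have := S.hd; omega)
    have hxa : polar Q (g x) a = 0 := hap 0
    obtain ⟨c, hc⟩ := eq_smul_of_perp hUn ha ha0 hQa hu fun b hb hab => by
      have := S.key1 hq hg hx hx0 hQx hgx ha ha0 hQa hxa hb hab
      rwa [e, polar_add_left, S.split.perp w hw b hb, zero_add] at this
    rw [hc, QuadraticMap.map_smul, hQa, smul_zero]

/-- `M` maps the singular vectors of `U` into `U ∪ W`. -/
theorem Setup.key3 (S : Setup Q W U M) [Finite F] [Module.Finite F V] (hq : ∃ c : F, c ≠ 0 ∧ c ≠ 1)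
    {g : V ≃ₗ[F] V} (hg : g ∈ M) {x : V} (hx : x ∈ U) (hx0 : x ≠ 0) (hQx : Q x = 0) :
    g x ∈ U ∨ g x ∈ W := by
  by_contra hcon
  push Not at hcon
  obtain ⟨hgU, hgW⟩ := hcon
  have hUn : NdOn Q U := S.split.ndOn_right S.nondeg
  have hgO := S.hMO hg
  have hQgx : Q (g x) = 0 := by rw [mem_O.1 hgO]; exact hQx
  obtain ⟨w, hw, a, ha, e⟩ := S.split.exists_add (g x)
  have hQa := S.key2 hq hg hx hx0 hQx hw ha e.symm
  have ha0 : a ≠ 0 := by
    rintro rfl
    rw [add_zero] at e
    exact hgW (by rw [← e]; exact hw)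
  have hxU : ∀ b ∈ U, polar Q (g x) b = polar Q a b := by
    intro b hb
    rw [← e, polar_add_left, S.split.perp w hw b hb, zero_add]
  have hxa : polar Q (g x) a = 0 := by rw [hxU a ha, polar_self_of_sing hQa]
  obtain ⟨a', ha', hyp⟩ := exists_partner hUn ha ha0 hQa
  -- all `v' ∈ T_{g x}` have singular `W`-component and are orthogonal to `a`
  have main : ∀ v ∈ T M Q (g x) hQgx, ∀ v₁ ∈ W, ∀ v₂ ∈ U, v = v₁ + v₂ →
      polar Q v₂ a = 0 ∧ Q v₁ = 0 := by
    intro v hv v₁ hv₁ v₂ hv₂ ev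
    -- the equation for all singular `y ∈ U` with `polar a y = 1`
    have heq : ∀ y ∈ U, Q y = 0 → polar Q a y = 1 →
        Q v₁ + (polar Q v₂ y + Q v) * polar Q v₂ a = 0 := by
      intro y hy hQy hay
      obtain ⟨_, hp, hm⟩ := hv 1
      have hy0 : y ≠ 0 := by
        rintro rfl
        rw [polar_zero_right] at hay
        exact zero_ne_one hay
      have hvy : polar Q v y = polar Q v₂ y := by
        rw [ev, polar_add_left, S.split.perp v₁ hv₁ y hy, zero_add]
      have e1 : siegel Q (g x) ((1 : F) • v) hQgx hp y =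
          (v₁ - (polar Q v₂ y + Q v) • w) + (y + v₂ - (polar Q v₂ y + Q v) • a) := by
        have h1 : (1 : F) • v = v := one_smul _ _
        rw [siegel_apply, h1, hxU y hy, hay, hvy, mul_one, ← e]
        have h2 : v = v₁ + v₂ := ev
        have h3 : y + (1 : F) • v - polar Q v₂ y • (w + a) - Q v • (w + a) =
          y + (1 : F) • (v₁ + v₂) - polar Q v₂ y • (w + a) - Q v • (w + a) := by rw [← h2]
        rw [h3]
        module
      have h4 := S.key2 hq hm hy hy0 hQy
        (W.sub_mem hv₁ (W.smul_mem _ hw)) (U.sub_mem (U.add_mem hy hv₂) (U.smul_mem _ ha)) e1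
      rw [sub_eq_add_neg, Q_add, Q_add, QuadraticMap.map_neg, polar_neg_right, polar_smul_right,
        polar_add_left, QuadraticMap.map_smul, hQy, hQa, polar_comm Q y a, hay, polar_comm Q y v₂]
        at h4
      have h5 : Q v = Q v₁ + Q v₂ := by
        rw [ev, Q_add, S.split.perp v₁ hv₁ v₂ hv₂, add_zero]
      simp only [smul_eq_mul] at h4
      rw [h5] at h4 ⊢
      linear_combination -h4
    have hδ : polar Q v₂ a = 0 := by
      by_contra hne
      have h0 := heq a' ha' hyp.right hyp.pair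
      have hlin : ∀ u ∈ cpIn Q U a a', Q u * polar Q v₂ a = polar Q v₂ u := by
        intro u hu
        obtain ⟨huU, hau, ha'u⟩ := mem_cpIn.1 hu
        have h1 := heq (a' + u - Q u • a) (U.sub_mem (U.add_mem ha' huU) (U.smul_mem _ ha)) (by
          rw [sub_eq_add_neg, Q_add, Q_add, QuadraticMap.map_neg, polar_neg_right, polar_smul_right,
            polar_add_left, QuadraticMap.map_smul, hyp.right, hyp.left, ha'u, hyp.pair',
            polar_comm Q u a, hau]
          simp) (by
          rw [polar_sub_right, polar_add_right, polar_smul_right, polar_self_of_sing hQa, hyp.pair,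
            hau]
          simp)
        rw [polar_sub_right, polar_add_right, polar_smul_right, smul_eq_mul] at h1
        have h2 : (polar Q v₂ u - Q u * polar Q v₂ a) * polar Q v₂ a = 0 := by
          linear_combination h1 - h0
        rcases mul_eq_zero.1 h2 with h3 | h3
        · exact (sub_eq_zero.1 h3).symm
        · exact absurd h3 hne
      have hfd := finrank_cpIn (Q := Q) U a a'
      have hne' : cpIn Q U a a' ≠ ⊥ := by
        intro hb
        rw [hb, finrank_bot] at hfd
        have := S.hd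
        omega
      obtain ⟨u₁, hu₁, hu₁0⟩ := Submodule.exists_mem_ne_zero_of_ne_bot hne'
      obtain ⟨u₂, hu₂, hu₁₂⟩ := (ndOn_cpIn hUn ha ha' hyp).exists_ne hu₁ hu₁0
      have h3 := hlin (u₁ + u₂) (Submodule.add_mem _ hu₁ hu₂)
      have h4 := hlin u₁ hu₁
      have h5 := hlin u₂ hu₂
      rw [Q_add, polar_add_right] at h3
      have h6 : polar Q u₁ u₂ * polar Q v₂ a = 0 := by linear_combination h3 - h4 - h5
      rcases mul_eq_zero.1 h6 with h7 | h7
      · exact hu₁₂ h7
      · exact hne h7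
    refine ⟨hδ, ?_⟩
    have h0 := heq a' ha' hyp.right hyp.pair
    rw [hδ, mul_zero, add_zero] at h0
    exact h0
  -- hence `T_{g x}` is totally singular
  have hsing : ∀ v ∈ T M Q (g x) hQgx, Q v = 0 := by
    intro v hv
    obtain ⟨v₁, hv₁, v₂, hv₂, ev⟩ := S.split.exists_add v
    obtain ⟨h1, h2⟩ := main v hv v₁ hv₁ v₂ hv₂ ev.symm
    obtain ⟨_, hp, hm⟩ := hv 1
    have hva : polar Q v a = 0 := by
      rw [← ev, polar_add_left, S.split.perp v₁ hv₁ a ha, zero_add, h1]
    have hper : ∀ b ∈ U, polar Q a b = 0 → polar Q v₂ b = 0 := by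
      intro b hb hab
      have h3 : (1 : F) • v = v := one_smul _ _
      have e1 : siegel Q (g x) ((1 : F) • v) hQgx hp a = a := by
        rw [siegel_apply, hxa, h3, hva]
        simp
      have e2 : siegel Q (g x) ((1 : F) • v) hQgx hp b = b - polar Q v b • g x := by
        rw [siegel_apply, hxU b hb, hab, h3]
        simp
      have h6 := T_conj hm (S.hMO hm) (S.mem_T hQa ha hb hab) (by rw [e1]; exact hQa)
      rw [e2] at h6
      have h7 : b - polar Q v b • g x ∈ T M Q a hQa := by simpa only [e1] using h6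
      have h8 := U.sub_mem hb (S.mem_U hQa ha ha0 h7)
      rw [sub_sub_cancel] at h8
      by_contra hne
      apply hgU
      refine (U.smul_mem_iff (?_ : polar Q v b ≠ 0)).1 h8
      rw [← ev, polar_add_left, S.split.perp v₁ hv₁ b hb, zero_add]
      exact hne
    obtain ⟨c, hc⟩ := eq_smul_of_perp hUn ha ha0 hQa hv₂ hper
    rw [← ev, Q_add, h2, hc, QuadraticMap.map_smul, hQa, ← hc, S.split.perp v₁ hv₁ v₂ hv₂]
    simp
  obtain ⟨x', hx', hyp'⟩ := exists_partner hUn hx hx0 hQx
  have hfd := finrank_cpIn (Q := Q) U x x'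
  obtain ⟨u, hu, hQu⟩ := exists_norm_two (S := cpIn Q U x x') (by have := S.hd; omega)
    (ndOn_cpIn hUn hx hx' hyp') 1
  obtain ⟨huU, hxu, -⟩ := mem_cpIn.1 hu
  have h1 := hsing _ (T_conj hg hgO (S.mem_T hQx hx huU hxu) hQgx)
  rw [mem_O.1 hgO, hQu] at h1
  exact one_ne_zero h1

/-- **Maximality of the stabiliser of a nondegenerate subspace**, `4 ≤ dim U`, `3 ≤ |F|`. -/
theorem maximal' [Finite F] [Module.Finite F V] (h : Split Q W U) (hG : Good Q)
    (hq : ∃ c : F, c ≠ 0 ∧ c ≠ 1) (hU : 4 ≤ Module.finrank F U) (hW0 : W ≠ ⊥)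
    (hex : ¬ (Nat.card F ≤ 3 ∧ Module.finrank F W = 2 ∧ ∃ x ∈ W, x ≠ 0 ∧ Q x = 0))
    (hniso : ∀ g ∈ E Q, ¬ U.map (g : V →ₗ[F] V) ≤ W) :
    Cfsg.Geo.IsMaximalIn (E Q) (stab W ⊓ E Q) := by
  have hQ := hG.nondeg
  have hUn : NdOn Q U := h.ndOn_right hQ
  obtain ⟨x, hxU, hx0, hQx, -⟩ := exists_sing_mem_perp (Q := Q) ![(0 : V)] U (by omega)
  refine ⟨lt_of_le_of_ne inf_le_right ?_, fun M hM hME => ?_⟩
  · -- properness
    intro heq
    obtain ⟨w, hw, hw0⟩ := Submodule.exists_mem_ne_zero_of_ne_bot hW0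
    obtain ⟨w', hw', hww'⟩ := (h.ndOn_left hQ).exists_ne hw hw0
    have hxw : polar Q x w = 0 := h.perp' hxU hw
    have hm : siegel Q x w hQx hxw ∈ stab W ⊓ E Q := by
      rw [heq]; exact siegel_mem_E _ _
    have h1 := (hm.1 w').1 hw'
    rw [siegel_apply, h.perp' hxU hw'] at h1
    have h2 : polar Q w w' • x ∈ W := by
      have h3 := W.sub_mem hw' h1
      have e : w' - (w' + (0 : F) • w - polar Q w w' • x - (Q w * 0) • x) =
          polar Q w w' • x := by module
      rwa [e] at h3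
    have h3 : x ∈ W := (W.smul_mem_iff hww').1 h2
    have h4 : x ∈ W ⊓ U := ⟨h3, hxU⟩
    rw [h.inf hQ, Submodule.mem_bot] at h4
    exact hx0 h4
  · by_cases hMW : M ≤ stab W ⊓ E Q
    · exact Or.inl (le_antisymm hMW hM)
    right
    have hMO : M ≤ O Q := hME.trans E_le_O
    obtain ⟨g, hgM, hg⟩ := SetLike.not_le_iff_exists.1 hMW
    have hgO : g ∈ O Q := hMO hgM
    have hgW : g ∉ stab U := fun hgU => hg ⟨(h.mem_stab_iff hQ hgO).2 hgU, hME hgM⟩
    by_cases hT : ∀ (a w : V) (hQa : Q a = 0), a ∈ U → a ≠ 0 → w ∈ W → w ∈ T M Q a hQa → w = 0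
    · exfalso
      have S : Setup Q W U M := ⟨h, hQ, hM, hMO, hU, hT⟩
      have hcon : ∀ x ∈ U, Q x = 0 → g x ∈ U ∨ g x ∈ W := by
        intro x hx hQx
        by_cases hx0 : x = 0
        · subst hx0
          left
          rw [map_zero]
          exact U.zero_mem
        · exact S.key3 hq hgM hx hx0 hQx
      obtain ⟨x₁, hx₁, hQx₁, hgx₁⟩ : ∃ x ∈ U, Q x = 0 ∧ g x ∉ U := by
        by_contra hc
        push Not at hc
        apply hgW
        apply mem_stab_of_le
        intro v hv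
        exact (le_of_sing' hUn hxU hx0 hQx (S := U.comap (g : V →ₗ[F] V)) hc) hv
      obtain ⟨x₂, hx₂, hQx₂, hgx₂⟩ : ∃ x ∈ U, Q x = 0 ∧ g x ∉ W := by
        by_contra hc
        push Not at hc
        have h1 : U ≤ W.comap (g : V →ₗ[F] V) := le_of_sing' hUn hxU hx0 hQx hc
        exact hniso g (hME hgM) (Submodule.map_le_iff_le_comap.2 h1)
      have h1 : g x₁ ∈ W := (hcon x₁ hx₁ hQx₁).resolve_left hgx₁
      have h2 : g x₂ ∈ U := (hcon x₂ hx₂ hQx₂).resolve_right hgx₂
      have h3 : polar Q x₁ x₂ = 0 := by rw [← polar_map hgO]; exact h.perp _ h1 _ h2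
      have h4 : Q (x₁ + x₂) = 0 := by rw [Q_add, hQx₁, hQx₂, h3]; simp
      rcases hcon (x₁ + x₂) (U.add_mem hx₁ hx₂) h4 with h5 | h5
      · rw [map_add] at h5
        apply hgx₁
        have := U.sub_mem h5 h2
        rwa [add_sub_cancel_right] at this
      · rw [map_add] at h5
        apply hgx₂
        have := W.sub_mem h5 h1
        rwa [add_sub_cancel_left] at this
    · push Not at hT
      obtain ⟨a, w, hQa, ha, ha0, hw, hwT, hw0⟩ := hT
      exact le_antisymm hME (E_le_of_mem_T' h hG hU hex hM hMO ha ha0 hQa hw hw0 hwT)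

end Cfsg.Agent.H916.LowNondeg
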