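import Cfsg.Agent.H885.NondegGeo
import Cfsg.Agent.H916.LowNondeg

/-!
Stabilisers of nondegenerate subspaces are maximal in `omegaGL Q`, dimension at least seven, at least three
elements in the field, the subspace and its complement not of the same dimension.
-/

set_option autoImplicit false

namespace Cfsg.Agent.H916.LowNondegGeo

open QuadraticMap hiding proj
open Cfsg.Agent.LieClassical.OrthCore Cfsg.Agent.LieClassical.OrthTrans
  Cfsg.Agent.LieClassical.OrthFinite Cfsg.Agent.LieClassical.OrthSimple Cfsg.Agent.H885.RootT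
  Cfsg.Agent.H885.Irr Cfsg.Agent.H885.Nondeg Cfsg.Agent.H885.NondegGeo Cfsg.Agent.H883.Bridge
  Cfsg.Agent.H916.LowNondeg

section General

variable {F V : Type*} [Field F] [AddCommGroup V] [Module F V] {Q : QuadraticForm F V}

theorem exists_ne_zero_one [Finite F] (hq : 3 ≤ Nat.card F) : ∃ c : F, c ≠ 0 ∧ c ≠ 1 := by
  classical
  by_contra hcon
  push Not at hcon
  have := Fintype.ofFinite F
  have h1 : (Finset.univ : Finset F) ⊆ {0, 1} := by
    intro c _
    by_cases h : c = 0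
    · simp [h]
    · simp [hcon c h]
  have h2 := Finset.card_le_card h1
  have h3 : ({0, 1} : Finset F).card ≤ 2 := Finset.card_le_two
  rw [Finset.card_univ] at h2
  rw [Nat.card_eq_fintype_card] at hq
  omega

/-- **Maximality of the stabiliser of a nondegenerate subspace**, dimension at least seven. -/
theorem maximal_ne [Finite F] [Module.Finite F V] {W U : Submodule F V} (h : Split Q W U)
    (hG : Good Q) (hd : 7 ≤ Module.finrank F V) (hq : 3 ≤ Nat.card F) (hW0 : W ≠ ⊥) (hU0 : U ≠ ⊥)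
    (hexW : ¬ (Nat.card F ≤ 3 ∧ Module.finrank F W = 2 ∧ ∃ x ∈ W, x ≠ 0 ∧ Q x = 0))
    (hexU : ¬ (Nat.card F ≤ 3 ∧ Module.finrank F U = 2 ∧ ∃ x ∈ U, x ≠ 0 ∧ Q x = 0))
    (hniso : ∀ g ∈ E Q, U.map (g : V →ₗ[F] V) ≠ W) :
    Cfsg.Geo.IsMaximalIn (E Q) (stab W ⊓ E Q) := by
  have hfr := h.finrank hG.nondeg
  have hq' := exists_ne_zero_one hq
  rcases le_or_gt (Module.finrank F W) (Module.finrank F U) with hlt | hlt
  · refine maximal' h hG hq' (by omega) hW0 hexW fun g hg hle => hniso g hg ?_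
    refine Submodule.eq_of_le_of_finrank_le hle ?_
    rw [LinearEquiv.finrank_map_eq g U]
    exact hlt
  · rw [h.stab_inf_E hG.nondeg]
    refine maximal' h.symm hG hq' (by omega) hU0 hexU fun g _ hle => ?_
    have h1 := Submodule.finrank_mono hle
    rw [LinearEquiv.finrank_map_eq g W] at h1
    omega

end General

section Geo

variable {ι : Type} [Fintype ι] [DecidableEq ι] {F : Type*} [Field F]

/-- **Ready to use.** Stabilisers of nondegenerate subspaces `W`, not isometric to the complement, are maximal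
in `omegaGL Q`, dimension at least `7`, `3 ≤ |F|`. -/
theorem subspaceStabilizer_nondegenerate_maximal_seven [Fintype F] {Q : (ι → F) → F}
    (hQ : Cfsg.Geo.IsNondegenerateQuadraticForm Q) (hd : 7 ≤ Fintype.card ι)
    (hq : 3 ≤ Fintype.card F)
    (W : Submodule F (ι → F)) (hW0 : W ≠ ⊥) (hW1 : W ≠ ⊤)
    (hW : Cfsg.Geo.IsNondegenerateOn (QuadraticMap.polar Q) W)
    (hex : ¬ (Fintype.card F = 3 ∧ (∃ U : Submodule F (ι → F), Module.finrank F U = 2 ∧
      Cfsg.Geo.IsNondegenerateOn (QuadraticMap.polar Q) U ∧ Cfsg.Geo.IsPlusTypeOn Q U ∧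
      (U = W ∨ (Cfsg.Geo.AreOrthogonalFor (QuadraticMap.polar Q) U W ∧
        Module.finrank F U + Module.finrank F W = Fintype.card ι)))))
    (hniso : ∀ (Q' : QuadraticForm F (ι → F)) (_ : ⇑Q' = Q) (_ : Nondeg Q')
      (U : Submodule F (ι → F)), Split Q' W U → ∀ g ∈ O Q',
      U.map (g : (ι → F) →ₗ[F] (ι → F)) ≠ W) :
    Cfsg.Geo.IsMaximalIn (Cfsg.Geo.omegaGL Q)
      (Cfsg.Geo.subspaceStabilizer W ⊓ Cfsg.Geo.omegaGL Q) := by
  refine subspaceStabilizer_maximal hQ (by omega) W fun Q' hQ' hG => ?_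
  subst hQ'
  have hnd := ndOn_of_geo hW
  have hs := split_perp hnd
  have hfr := hs.finrank hG.nondeg
  rw [Module.finrank_fintype_fun_eq_card] at hfr
  refine maximal_ne hs hG (by rwa [Module.finrank_fintype_fun_eq_card])
    (by rwa [Nat.card_eq_fintype_card]) hW0 ?_ ?_ ?_ ?_
  · intro h0
    apply hW1
    have := hs.sup
    rwa [h0, sup_bot_eq] at this
  · rintro ⟨h1, h2, x, hx, hx0, hQx⟩
    rw [Nat.card_eq_fintype_card] at h1
    exact hex ⟨by omega, W, h2, hW, plusType_of_sing h2 hx hx0 hQx, Or.inl rfl⟩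
  · rintro ⟨h1, h2, x, hx, hx0, hQx⟩
    rw [Nat.card_eq_fintype_card] at h1
    refine hex ⟨by omega, perp Q' W, h2, geo_of_ndOn (hs.ndOn_right hG.nondeg),
      plusType_of_sing h2 hx hx0 hQx, Or.inr ⟨fun u hu w hw => hs.perp' hu hw, by omega⟩⟩
  · intro g hg
    exact hniso Q' rfl hG.nondeg _ hs g (E_le_O hg)

/-- Stabilisers of nondegenerate subspaces `W`, `2 dim W ≠ dim V`, are maximal in `omegaGL Q`, dimension at least
`7`, `3 ≤ |F|`. -/
theorem subspaceStabilizer_nondegenerate_maximal_low [Fintype F] {Q : (ι → F) → F}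
    (hQ : Cfsg.Geo.IsNondegenerateQuadraticForm Q) (hd : 7 ≤ Fintype.card ι)
    (hq : 3 ≤ Fintype.card F)
    (W : Submodule F (ι → F)) (hW0 : W ≠ ⊥) (hW1 : W ≠ ⊤)
    (hW : Cfsg.Geo.IsNondegenerateOn (QuadraticMap.polar Q) W)
    (hex : ¬ (Fintype.card F = 3 ∧ (∃ U : Submodule F (ι → F), Module.finrank F U = 2 ∧
      Cfsg.Geo.IsNondegenerateOn (QuadraticMap.polar Q) U ∧ Cfsg.Geo.IsPlusTypeOn Q U ∧
      (U = W ∨ (Cfsg.Geo.AreOrthogonalFor (QuadraticMap.polar Q) U W ∧
        Module.finrank F U + Module.finrank F W = Fintype.card ι)))))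
    (hdim : 2 * Module.finrank F W ≠ Fintype.card ι) :
    Cfsg.Geo.IsMaximalIn (Cfsg.Geo.omegaGL Q)
      (Cfsg.Geo.subspaceStabilizer W ⊓ Cfsg.Geo.omegaGL Q) := by
  refine subspaceStabilizer_nondegenerate_maximal_seven hQ hd hq W hW0 hW1 hW hex ?_
  intro Q' _ hnd U hs g _ heq
  have h1 := hs.finrank hnd
  rw [Module.finrank_fintype_fun_eq_card] at h1
  have h2 : Module.finrank F W = Module.finrank F U := by
    rw [← heq, LinearEquiv.finrank_map_eq g U]
  omega

/-- Odd dimension at least seven: all nondegenerate even-dimensional subspaces except the hyperbolic planes over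
the field of three elements. -/
theorem subspaceStabilizer_even_maximal [Fintype F] {Q : (ι → F) → F}
    (hQ : Cfsg.Geo.IsNondegenerateQuadraticForm Q) (hd : 7 ≤ Fintype.card ι)
    (hodd : Odd (Fintype.card ι)) (hq : 3 ≤ Fintype.card F)
    (W : Submodule F (ι → F)) (hW0 : W ≠ ⊥) (hev : Even (Module.finrank F W))
    (hW : Cfsg.Geo.IsNondegenerateOn (QuadraticMap.polar Q) W)
    (hex : ¬ (Fintype.card F = 3 ∧ Module.finrank F W = 2 ∧ Cfsg.Geo.IsPlusTypeOn Q W)) :
    Cfsg.Geo.IsMaximalIn (Cfsg.Geo.omegaGL Q)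
      (Cfsg.Geo.subspaceStabilizer W ⊓ Cfsg.Geo.omegaGL Q) := by
  have hpar : 2 * Module.finrank F W ≠ Fintype.card ι := by
    intro h
    rw [← h] at hodd
    exact (Nat.not_odd_iff_even.2 (even_two_mul _)) hodd
  refine subspaceStabilizer_nondegenerate_maximal_low hQ hd hq W hW0 ?_ hW ?_ hpar
  · rintro rfl
    rw [finrank_top, Module.finrank_fintype_fun_eq_card] at hev
    exact (Nat.not_odd_iff_even.2 hev) hodd
  · rintro ⟨h3, U, hU2, hUn, hUp, rfl | ⟨-, hsum⟩⟩
    · exact hex ⟨h3, hU2, hUp⟩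
    · rw [hU2] at hsum
      have h1 : Even (Fintype.card ι) := by
        rw [← hsum]
        exact even_two.add hev
      exact (Nat.not_odd_iff_even.2 h1) hodd

end Geo

end Cfsg.Agent.H916.LowNondegGeo
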