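import Cfsg.Agent.H916.NegOne
import Cfsg.Agent.H919.ExtForm

/-!
# Cores with simple group `Sp₆(2)` or `Ω₈⁺(2)` in dimension eight fix no alternating form (odd characteristic)
-/

set_option autoImplicit false
set_option linter.unusedSectionVars false
set_option linter.unusedVariables false

namespace Cfsg.Agent.H916.FP

open SpSix SpEight Om Halving TreeTrace Pauli Dbl

section signs

variable {A : Type*} [Ring A]

/-- commuting up to the sign `b` -/
def Cz (b : Bool) (x y : A) : Prop := x * y = bif b then -(y * x) else y * x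

theorem Cz.mulR {b c : Bool} {x y z : A} (h : Cz b x y) (h' : Cz c x z) : Cz (b ^^ c) x (y * z) := by
  unfold Cz at *
  rw [← mul_assoc, h]
  cases b <;> cases c <;> simp only [cond_true, cond_false, Bool.false_xor, Bool.true_xor, Bool.not_true, Bool.not_false] at *
  · rw [mul_assoc, h', mul_assoc]
  · rw [mul_assoc, h', mul_neg, mul_assoc]
  · rw [neg_mul, mul_assoc, h', mul_assoc]
  · rw [neg_mul, mul_assoc, h', mul_neg, neg_neg, mul_assoc]

theorem Cz.symm {b : Bool} {x y : A} (h : Cz b x y) : Cz b y x := by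
  unfold Cz at *
  cases b <;> simp only [cond_true, cond_false] at *
  · exact h.symm
  · rw [h, neg_neg]

theorem Cz.one (x : A) : Cz false x 1 := by
  unfold Cz
  simp

variable {g : ℕ → A} (hg : ∀ i j, 0 < i → i < 8 → 0 < j → j < 8 → i ≠ j → An (g i) (g j))

def par (i : ℕ) : List ℕ → Bool
  | [] => false
  | j :: l => (decide (i ≠ j)) ^^ par i l

def par2 (l : List ℕ) : List ℕ → Bool
  | [] => false
  | j :: l' => par j l ^^ par2 l l'

include hg in
theorem cz_par {i : ℕ} (h0 : 0 < i) (h8 : i < 8) (l : List ℕ) (hl : ∀ j ∈ l, 0 < j ∧ j < 8) :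
    Cz (par i l) (g i) (pS g l) := by
  induction l with
  | nil => exact Cz.one _
  | cons j l ih =>
    have hj := hl j List.mem_cons_self
    refine Cz.mulR ?_ (ih (fun x hx => hl x (List.mem_cons_of_mem _ hx)))
    by_cases h : i = j
    · rw [decide_eq_false (by simpa using h), h]; rfl
    · rw [decide_eq_true (by simpa using h)]; exact hg i j h0 h8 hj.1 hj.2 h

include hg in
theorem cz_par2 (l : List ℕ) (hl : ∀ j ∈ l, 0 < j ∧ j < 8) (l' : List ℕ) (hl' : ∀ j ∈ l', 0 < j ∧ j < 8) :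
    Cz (par2 l l') (pS g l) (pS g l') := by
  induction l' with
  | nil => exact Cz.one _
  | cons j l' ih =>
    have hj := hl' j List.mem_cons_self
    exact Cz.mulR (cz_par hg hj.1 hj.2 l hl).symm (ih (fun x hx => hl' x (List.mem_cons_of_mem _ hx)))

end signs

section forms

variable {k V : Type*} [Field k] [AddCommGroup V] [Module k V]

/-- an alternating form, non-degenerate on the left -/
structure Alt (B : V → V → k) : Prop where
  add : ∀ x y z, B x (y + z) = B x y + B x z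
  smul : ∀ (c : k) x y, B x (c • y) = c * B x y
  smulL : ∀ (c : k) x y, B (c • x) y = c * B x y
  self : ∀ x, B x x = 0
  nd : ∀ x, (∀ y, B x y = 0) → x = 0

variable {B : V → V → k} (hB : Alt B)

include hB

theorem rad (h2 : (2 : k) ≠ 0) {A1 A2 A3 : Module.End k V} (s1 : A1 * A1 = 1) (s2 : A2 * A2 = 1) (s3 : A3 * A3 = 1)
    (c12 : A1 * A2 = A2 * A1) (c13 : A1 * A3 = A3 * A1) (c23 : A2 * A3 = A3 * A2)
    (i1 : ∀ x y, B (A1 x) (A1 y) = B x y) (i2 : ∀ x y, B (A2 x) (A2 y) = B x y) (i3 : ∀ x y, B (A3 x) (A3 y) = B x y)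
    {v : V} (v1 : A1 v = v) (v2 : A2 v = v) (v3 : A3 v = v)
    (hl : ∀ x, A1 x = x → A2 x = x → A3 x = x → ∃ c : k, x = c • v) : v = 0 := by
  apply hB.nd
  intro w
  have key : ∀ {A : Module.End k V}, (∀ x y, B (A x) (A y) = B x y) → A v = v → ∀ w, B v (w + A w) = 2 * B v w := by
    intro A hA hv w
    have h3 : B v (A w) = B v w := by
      nth_rewrite 1 [← hv]
      exact hA v w
    rw [hB.add, h3, two_mul]
  have sq : ∀ {A : Module.End k V}, A * A = 1 → ∀ x, A (A x) = x := fun h x => by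
    rw [← Module.End.mul_apply, h, Module.End.one_apply]
  have cm : ∀ {A C : Module.End k V}, A * C = C * A → ∀ x, A (C x) = C (A x) := fun h x => by
    rw [← Module.End.mul_apply, h, Module.End.mul_apply]
  set w1 := w + A1 w with hw1
  set w2 := w1 + A2 w1 with hw2
  set w3 := w2 + A3 w2 with hw3
  have e : B v w3 = 8 * B v w := by
    rw [hw3, key i3 v3, hw2, key i2 v2, hw1, key i1 v1]
    ring
  have f1 : A1 w1 = w1 := by rw [hw1, map_add, sq s1, add_comm]
  have f2 : A1 w2 = w2 := by rw [hw2, map_add, cm c12, f1]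
  have f3 : A1 w3 = w3 := by rw [hw3, map_add, cm c13, f2]
  have f4 : A2 w2 = w2 := by rw [hw2, map_add, sq s2, add_comm]
  have f5 : A2 w3 = w3 := by rw [hw3, map_add, cm c23, f4]
  have f6 : A3 w3 = w3 := by rw [hw3, map_add, sq s3, add_comm]
  obtain ⟨r, hr⟩ := hl w3 f3 f5 f6
  have e2 : B v w3 = 0 := by rw [hr, hB.smul, hB.self, mul_zero]
  rw [e] at e2
  have h8' : (8 : k) ≠ 0 := by
    have : (8 : k) = 2 ^ 3 := by norm_num
    rw [this]
    exact pow_ne_zero _ h2
  exact (mul_eq_zero.1 e2).resolve_left h8'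

end forms

section Sp

variable {T k V : Type*} [Group T] [Field k] [IsAlgClosed k] [AddCommGroup V] [Module k V] [FiniteDimensional k V]
  (R : PRep T k V) {t : ℕ → T} (D : SpData t) {B : V → V → k} (hB : Alt B)
  (hmul : ∀ (s : T), ∀ A ∈ R.L s, ∃ ε : k, ∀ x y, B (A x) (A y) = ε * B x y)

/-- all involutive lifts have multiplier `ε` -/
def EM (B : V → V → k) (s : T) (ε : k) : Prop := ∀ A ∈ R.L s, A * A = 1 → ∀ x y, B (A x) (A y) = ε * B x y

include D hB hmul

omit D in
theorem B_ne [Nontrivial V] : ∃ x y, B x y ≠ 0 := by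
  by_contra h
  push Not at h
  obtain ⟨v, hv⟩ := _root_.exists_ne (0 : V)
  exact hv (hB.nd v (h v))

omit D in
theorem mult_sq [Nontrivial V] {A : Module.End k V} {ε : k} (hA2 : A * A = 1)
    (h : ∀ x y, B (A x) (A y) = ε * B x y) : ε * ε = 1 := by
  obtain ⟨x, y, hxy⟩ := B_ne R hB hmul
  have h1 := h (A x) (A y)
  rw [← Module.End.mul_apply, ← Module.End.mul_apply, hA2, Module.End.one_apply, Module.End.one_apply, h x y,
    ← mul_assoc] at h1
  exact mul_right_cancel₀ hxy (by rw [← h1, one_mul])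

theorem EM.back [Nontrivial V] {x v : ℕ} (hx0 : 0 < x) (hx : x < 64) (hv0 : 0 < v) (hv : v < 64) {ε : k}
    (h : EM R B (t (rf x v)) ε) : EM R B (t v) ε := by
  intro A hA hA2 a b
  obtain ⟨X, hX, hX2⟩ := R.exists_inv (D.sq hx0 hx)
  obtain ⟨δ, hδ⟩ := hmul _ X hX
  have hδ2 := mult_sq R hB hmul hX2 hδ
  have hm := R.mul (R.mul hX hA) hX
  rw [D.cj hx0 hx hv0 hv] at hm
  have hs : (X * A * X) * (X * A * X) = 1 := by
    calc (X * A * X) * (X * A * X) = X * A * (X * X) * A * X := by simp only [mul_assoc]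
      _ = X * (A * A) * X := by rw [hX2, mul_one]; simp only [mul_assoc]
      _ = 1 := by rw [hA2, mul_one, hX2]
  have h1 := h _ hm hs (X a) (X b)
  have e : ∀ c, (X * A * X) (X c) = X (A c) := by
    intro c
    rw [Module.End.mul_apply, Module.End.mul_apply, ← Module.End.mul_apply X X, hX2, Module.End.one_apply]
  rw [e, e, hδ, hδ] at h1
  have h3 : δ * (δ * B (A a) (A b)) = δ * (ε * (δ * B a b)) := by rw [h1]
  rw [← mul_assoc, hδ2, one_mul, show δ * (ε * (δ * B a b)) = (δ * δ) * (ε * B a b) by ring, hδ2, one_mul] at h3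
  exact h3

/-- all multipliers agree -/
theorem EM.all [Nontrivial V] {ε : k} (h : EM R B (t 1) ε) {v : ℕ} (hv0 : 0 < v) (hv : v < 64) : EM R B (t v) ε := by
  have key : ∀ (l : List ℕ) (hl' : Adm l) {v : ℕ}, 0 < v → v < 64 → EM R B (t (act l v)) ε → EM R B (t v) ε := by
    intro l
    induction l with
    | nil => intro _ v _ _ h; exact h
    | cons x l ih =>
      intro hl' v hv0 hv h
      exact EM.back R D hB hmul hl'.head.1 hl'.head.2 hv0 hv
        (ih hl'.tail (rf_pos hv0 (x := x)) (rf_lt hl'.head.2 hv) h)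
  obtain ⟨p1, p3⟩ := toOne_ok ⟨v, hv⟩ (by rw [Ne, Fin.ext_iff]; simp; omega)
  simp only at p1 p3
  rw [List.all_eq_true] at p3
  refine key (toOne v) (fun x hx => by simpa using p3 x hx) hv0 hv ?_
  rw [p1]
  exact h

theorem exists_eps [Nontrivial V] : ∃ ε : k, ε * ε = 1 ∧ ∀ {v}, 0 < v → v < 64 → EM R B (t v) ε := by
  obtain ⟨X, hX, hX2⟩ := R.exists_inv (D.sq (v := 1) (by norm_num) (by norm_num))
  obtain ⟨ε, hε⟩ := hmul _ X hX
  refine ⟨ε, mult_sq R hB hmul hX2 hε, fun {v} hv0 hv => EM.all R D hB hmul ?_ hv0 hv⟩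
  intro A hA hA2 a b
  rcases R.unique hA hX hA2 hX2 with h | h
  · rw [h]; exact hε a b
  · have h3 := hε (-a) (-b)
    rw [h, LinearMap.neg_apply, LinearMap.neg_apply, ← map_neg, ← map_neg, h3]
    rw [show B (-a) (-b) = B a b by
      rw [← neg_one_smul k a, ← neg_one_smul k b, hB.smulL, hB.smul]; ring]

omit hmul in
omit [IsAlgClosed k] [FiniteDimensional k V] R in
theorem neg_neg_B (a b : V) : B (-a) (-b) = B a b := by
  rw [← neg_one_smul k a, ← neg_one_smul k b, hB.smulL, hB.smul]; ring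

end Sp

section main

variable {T k V : Type*} [Group T] [Field k] [IsAlgClosed k] [AddCommGroup V] [Module k V] [FiniteDimensional k V]
  (R : PRep T k V) {t : ℕ → T} (D : SpData t) {B : V → V → k} (hB : Alt B)
  (hmul : ∀ (s : T), ∀ A ∈ R.L s, ∃ ε : k, ∀ x y, B (A x) (A y) = ε * B x y)
  (h2 : (2 : k) ≠ 0) (hV : Module.finrank k V = 8)

include D hB hmul h2 hV

theorem not_comm (hc : R.CommL (t 1) (t 2)) : False := by
  have : Nontrivial V := Module.nontrivial_of_finrank_pos (R := k) (by rw [hV]; norm_num)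
  have hfin : Module.finrank k V ≤ 13 := by omega
  obtain ⟨Γ, hA⟩ := D.exists_CA R hc
  have hl := hA.ne D
  have FE := fanoE hA.cox hA.prod
  have hm : ∀ {v}, 0 < v → v < 64 → Ga Γ v ∈ R.L (t v) := fun h0 h => D.ga_mem R hA.mem h0 h
  have hZ1 : Module.finrank k (ZZ (TT Γ)) = 1 := by
    have := finrank_eq h2 hfin FE hl
    omega
  obtain ⟨ε, hε2, hε⟩ := exists_eps R D hB hmul
  have hG : ∀ {v : ℕ}, 0 < v → v < 64 → ∀ x y, B (Ga Γ v x) (Ga Γ v y) = ε * B x y := fun h0 h x y =>
    hε h0 h _ (hm h0 h) (ga_sq hA.cox _) x y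
  have hε1 : ε = 1 := by
    obtain ⟨x, y, hxy⟩ := B_ne R hB hmul
    have h7 : B ((Ga Γ 1 * Ga Γ 2 * Ga Γ 3 * Ga Γ 4 * Ga Γ 5 * Ga Γ 6 * Ga Γ 7) x)
        ((Ga Γ 1 * Ga Γ 2 * Ga Γ 3 * Ga Γ 4 * Ga Γ 5 * Ga Γ 6 * Ga Γ 7) y) = ε ^ 7 * B x y := by
      simp only [Module.End.mul_apply]
      rw [hG (by norm_num) (by norm_num), hG (by norm_num) (by norm_num), hG (by norm_num) (by norm_num),
        hG (by norm_num) (by norm_num), hG (by norm_num) (by norm_num), hG (by norm_num) (by norm_num),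
        hG (by norm_num) (by norm_num)]
      ring
    rw [hA.prod, Module.End.one_apply, Module.End.one_apply] at h7
    have h8 : ε ^ 7 = 1 := mul_right_cancel₀ hxy (by rw [← h7, one_mul])
    calc ε = ε * (ε * ε) ^ 3 := by rw [hε2, one_pow, mul_one]
      _ = ε ^ 7 := by ring
      _ = 1 := h8
  have hT : ∀ i : Fin 7, ∀ x y, B (TT Γ i x) (TT Γ i y) = B x y := by
    intro i x y
    have := hG (v := i + 1) (Nat.succ_pos _) (by omega) x y
    rw [hε1, one_mul] at this
    exact this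
  obtain ⟨v, hv, hv2⟩ := finrank_eq_one_iff'.1 hZ1
  have h0 := rad hB h2 (A1 := TT Γ 0) (A2 := TT Γ 1) (A3 := 1) (v := v) (FE.sq 0) (FE.sq 1) (one_mul 1) (FE.comm 0 1)
    (by rw [mul_one, one_mul]) (by rw [mul_one, one_mul]) (hT 0) (hT 1) (fun x y => rfl) (v.2 0) (v.2 1) rfl
    (by
      intro x h1 h2' _
      have hx : x ∈ ZZ (TT Γ) := ZZ_of_two h2 hfin FE hl (u := 0) (u' := 1) (by decide) h1 h2'
      obtain ⟨c, hc⟩ := hv2 ⟨x, hx⟩
      exact ⟨c, (congrArg Subtype.val hc).symm⟩)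
  exact hv (Subtype.ext h0)

theorem not_anti (hc : R.AntiL (t 1) (t 2)) : False := by
  have : Nontrivial V := Module.nontrivial_of_finrank_pos (R := k) (by rw [hV]; norm_num)
  obtain ⟨ε, hε2, hε⟩ := exists_eps R D hB hmul
  have hex : ∀ v : ℕ, ∃ A : Module.End k V, A * A = 1 ∧ (0 < v → v < 8 → A ∈ R.L (t v)) := by
    intro v
    by_cases h : 0 < v ∧ v < 8
    · obtain ⟨A, hA, hA2⟩ := R.exists_inv (D.sq (v := v) h.1 (by omega))
      exact ⟨A, hA2, fun _ _ => hA⟩
    · exact ⟨1, one_mul 1, fun h1 h2 => absurd ⟨h1, h2⟩ h⟩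
  choose g g2 gm using hex
  have hg : ∀ i j, 0 < i → i < 8 → 0 < j → j < 8 → i ≠ j → An (g i) (g j) := by
    intro i j hi0 hi hj0 hj hij
    refine D.anti_all R hc (v := i) (w := j) hi0 (by omega) hj0 (by omega) hij ?_ _ (gm i hi0 hi) _ (gm j hj0 hj)
    interval_cases i <;> interval_cases j <;> rfl
  have iso : ∀ l : List ℕ, (∀ j ∈ l, 0 < j ∧ j < 8) → ∀ x y, B (pS g l x) (pS g l y) = ε ^ l.length * B x y := by
    intro l
    induction l with
    | nil => intro _ x y; rw [pS, List.length_nil, pow_zero, one_mul]; rfl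
    | cons j l ih =>
      intro hl x y
      have hj := hl j List.mem_cons_self
      rw [pS, Module.End.mul_apply, Module.End.mul_apply, hε hj.1 (by omega) _ (gm j hj.1 hj.2) (g2 j),
        ih (fun i hi => hl i (List.mem_cons_of_mem _ hi)), List.length_cons, pow_succ]
      ring
  have e4 : ε ^ 4 = 1 := by
    calc ε ^ 4 = (ε * ε) ^ 2 := by ring
      _ = 1 := by rw [hε2, one_pow]
  have sq4 : ∀ l : List ℕ, l.length = 4 → (∀ j ∈ l, 0 < j ∧ j < 8) → l.Pairwise (· ≠ ·) → pS g l * pS g l = 1 := by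
    intro l h4 hl hp
    obtain ⟨n, hn, h⟩ := sq_anti g2 l (by
      refine List.Pairwise.imp_of_mem (fun {a b} ha hb hab => ?_) hp
      exact hg a b (hl a ha).1 (hl a ha).2 (hl b hb).1 (hl b hb).2 hab)
    rw [h4] at hn
    have hn6 : n = 6 := by omega
    rw [h, hn6]
    norm_num
  set l1 : List ℕ := [4, 5, 6, 7] with hl1
  set l2 : List ℕ := [2, 3, 6, 7] with hl2
  set l3 : List ℕ := [1, 3, 5, 7] with hl3
  have m1 : ∀ j ∈ l1, 0 < j ∧ j < 8 := by decide
  have m2 : ∀ j ∈ l2, 0 < j ∧ j < 8 := by decide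
  have m3 : ∀ j ∈ l3, 0 < j ∧ j < 8 := by decide
  have s1 := sq4 l1 rfl m1 (by decide)
  have s2 := sq4 l2 rfl m2 (by decide)
  have s3 := sq4 l3 rfl m3 (by decide)
  have c12 : pS g l1 * pS g l2 = pS g l2 * pS g l1 := cz_par2 hg l1 m1 l2 m2
  have c13 : pS g l1 * pS g l3 = pS g l3 * pS g l1 := cz_par2 hg l1 m1 l3 m3
  have c23 : pS g l2 * pS g l3 = pS g l3 * pS g l2 := cz_par2 hg l2 m2 l3 m3
  have p41 : g 4 * pS g l1 = -(pS g l1 * g 4) := cz_par hg (i := 4) (by norm_num) (by norm_num) l1 m1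
  have p21 : g 2 * pS g l1 = pS g l1 * g 2 := cz_par hg (i := 2) (by norm_num) (by norm_num) l1 m1
  have p22 : g 2 * pS g l2 = -(pS g l2 * g 2) := cz_par hg (i := 2) (by norm_num) (by norm_num) l2 m2
  have p11 : g 1 * pS g l1 = pS g l1 * g 1 := cz_par hg (i := 1) (by norm_num) (by norm_num) l1 m1
  have p12 : g 1 * pS g l2 = pS g l2 * g 1 := cz_par hg (i := 1) (by norm_num) (by norm_num) l2 m2
  have p13 : g 1 * pS g l3 = -(pS g l3 * g 1) := cz_par hg (i := 1) (by norm_num) (by norm_num) l3 m3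
  have one2 : ∀ {A : Module.End k V}, A * A = 1 → A * A = ((1 : k) * 1) • 1 := fun h => by
    rw [h, mul_one, one_smul]
  have one3 : ∀ {A : Module.End k V}, A * A = 1 → A * A = (1 : k) • 1 := fun h => by rw [h, one_smul]
  have d1 := finrank_half h2 (W := ⊤) (A := pS g l1) (B := g 4) (a := 1) (b := 1) one_ne_zero one_ne_zero
    (fun _ _ => trivial) (fun _ _ => trivial) (one2 s1) (one3 (g2 4)) (by rw [p41, neg_neg])
  have d2 := finrank_half h2 (W := eig ⊤ (pS g l1) 1) (A := pS g l2) (B := g 2) (a := 1) (b := 1) one_ne_zero one_ne_zero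
    (eig_inv (fun _ _ => trivial) c12) (eig_inv (fun _ _ => trivial) p21.symm) (one2 s2) (one3 (g2 2)) (by rw [p22, neg_neg])
  have d3 := finrank_half h2 (W := eig (eig ⊤ (pS g l1) 1) (pS g l2) 1) (A := pS g l3) (B := g 1) (a := 1) (b := 1)
    one_ne_zero one_ne_zero
    (eig_inv (eig_inv (fun _ _ => trivial) c13) c23) (eig_inv (eig_inv (fun _ _ => trivial) p11.symm) p12.symm)
    (one2 s3) (one3 (g2 1)) (by rw [p13, neg_neg])
  rw [finrank_top, hV] at d1
  have hd : Module.finrank k (eig (eig (eig ⊤ (pS g l1) 1) (pS g l2) 1) (pS g l3) 1) = 1 := by omega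
  obtain ⟨v, hv, hv2⟩ := finrank_eq_one_iff'.1 hd
  have hvm := v.2
  rw [mem_eig, mem_eig, mem_eig] at hvm
  obtain ⟨⟨⟨-, v1⟩, v2⟩, v3⟩ := hvm
  rw [one_smul] at v1 v2 v3
  have h0 := rad hB h2 (v := (v : V)) s1 s2 s3 c12 c13 c23
    (fun x y => by rw [iso l1 m1, show l1.length = 4 from rfl, e4, one_mul])
    (fun x y => by rw [iso l2 m2, show l2.length = 4 from rfl, e4, one_mul])
    (fun x y => by rw [iso l3 m3, show l3.length = 4 from rfl, e4, one_mul]) v1 v2 v3
    (by
      intro x h1 h2' h3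
      have hx : x ∈ eig (eig (eig ⊤ (pS g l1) 1) (pS g l2) 1) (pS g l3) 1 := by
        rw [mem_eig, mem_eig, mem_eig, one_smul]
        exact ⟨⟨⟨trivial, h1⟩, h2'⟩, h3⟩
      obtain ⟨c, hc⟩ := hv2 ⟨x, hx⟩
      exact ⟨c, (congrArg Subtype.val hc).symm⟩)
  exact hv (Subtype.ext h0)

theorem no_alt : False := by
  have : Nontrivial V := Module.nontrivial_of_finrank_pos (R := k) (by rw [hV]; norm_num)
  rcases D.dichotomy R with hc | hc
  · exact not_comm R D hB hmul h2 hV hc
  · exact not_anti R D hB hmul h2 hV hc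

end main

section core

universe u v

open Cfsg Cfsg.Agent.H915.LD Cfsg.Geo Matrix H919.Q2 Cfsg.Agent.LieClassical.OrthForms

variable {ι : Type} [Fintype ι] [DecidableEq ι] {F : Type u} [Field F] {P : Subgroup (GL ι F)}

theorem alt_ext (h2 : (2 : F) ≠ 0) {f : (ι → F) → (ι → F) → F} (hf : IsSymplecticForm f) :
    Alt (extF (AlgebraicClosure F) f) := by
  have h2' : (2 : AlgebraicClosure F) ≠ 0 := by
    intro h
    apply h2
    apply (algebraMap F (AlgebraicClosure F)).injective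
    rw [map_zero, map_ofNat, h]
  have hskew : ∀ v w, extF (AlgebraicClosure F) f v w = - extF (AlgebraicClosure F) f w v := by
    intro v w
    have hb : IsBilinearForm (fun x y => - extF (AlgebraicClosure F) f y x) :=
      ⟨fun x y z => by rw [(extF_bil f).add_right]; ring, fun c x z => by rw [(extF_bil f).smul_right]; ring,
        fun x y z => by rw [(extF_bil f).add_left]; ring, fun c x z => by rw [(extF_bil f).smul_left]; ring⟩
    exact bil_ext (F := F) (extF_bil f) hb (fun x y => by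
      show _ = - extF (AlgebraicClosure F) f (mV (AlgebraicClosure F) y) (mV (AlgebraicClosure F) x)
      rw [extF_mV hf.bilinear, extF_mV hf.bilinear, hf.skew x y, map_neg]) v w
  have hdet := H911.OddForm.det_gram_ne_zero hf.bilinear hf.nondegenerate
  have hdet' : ((H911.OddForm.gram f).map (algebraMap F (AlgebraicClosure F))).det ≠ 0 := by
    have h3 : ((H911.OddForm.gram f).map (algebraMap F (AlgebraicClosure F))).det =
        algebraMap F (AlgebraicClosure F) (H911.OddForm.gram f).det := by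
      rw [RingHom.map_det]
      rfl
    rw [h3]
    exact (map_ne_zero _).2 hdet
  refine ⟨fun x y z => (extF_bil f).add_right x y z, fun c x y => (extF_bil f).smul_right c x y,
    fun c x y => (extF_bil f).smul_left c x y, fun x => ?_, fun v hv => ?_⟩
  · have h := hskew x x
    have h3 : (2 : AlgebraicClosure F) * extF (AlgebraicClosure F) f x x = 0 := by
      rw [two_mul]
      nth_rewrite 1 [h]
      rw [neg_add_cancel]
    exact (mul_eq_zero.1 h3).resolve_left h2'
  · by_contra hne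
    apply hdet'
    rw [← Matrix.exists_mulVec_eq_zero_iff]
    refine ⟨v, hne, ?_⟩
    funext i
    have h3 : extF (AlgebraicClosure F) f (Pi.single i 1) v = 0 := by
      rw [hskew, hv, neg_zero]
    unfold extF at h3
    rw [single_dotProduct, one_mul] at h3
    exact h3

theorem mul_ext {T : Type v} [Group T] (hC : Core P) (e : Soc P ≃* T) {f : (ι → F) → (ι → F) → F}
    (hf : IsSymplecticForm f) (hfix : FixesForm (matrixSet P) f) (s : T) :
    ∀ A ∈ (coreRep hC e).L s, ∃ ε : AlgebraicClosure F, ∀ x y,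
      extF (AlgebraicClosure F) f (A x) (A y) = ε * extF (AlgebraicClosure F) f x y := by
  rintro A ⟨g, c, hc, hg, rfl⟩
  refine ⟨c * c, fun x y => ?_⟩
  have h := extF_inv (K := AlgebraicClosure F) hf.bilinear (invB_of_fixes hfix)
    (mG F (AlgebraicClosure F) g) ⟨g, g.2, rfl⟩ x y
  rw [LinearMap.smul_apply, LinearMap.smul_apply, (extF_bil f).smul_left, (extF_bil f).smul_right, ← mul_assoc]
  exact congrArg (c * c * ·) h

/-- **No alternating form in dimension eight.** -/
theorem core_not_fixA {T : Type v} [Group T] (hC : Core P) (e : Soc P ≃* T) {t : ℕ → T} (D : SpData t)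
    (h2 : (2 : F) ≠ 0) (hn : Fintype.card ι = 8) : ¬ FixA P := by
  rintro ⟨f, hf, hfix⟩
  have h2' : (2 : AlgebraicClosure F) ≠ 0 := by
    intro h
    apply h2
    apply (algebraMap F (AlgebraicClosure F)).injective
    rw [map_zero, map_ofNat, h]
  have hV : Module.finrank (AlgebraicClosure F) (ι → AlgebraicClosure F) = 8 := by
    rw [Module.finrank_fintype_fun_eq_card]; exact hn
  exact no_alt (coreRep hC e) D (alt_ext h2 hf) (mul_ext hC e hf hfix) h2' hV

variable {K : Type v} [Field K] [Fintype K]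

theorem sp_not_fixA (hK : Fintype.card K = 2) (hC : Core P) (e : Soc P ≃* PSp 3 K)
    (h2 : (2 : F) ≠ 0) (hn : Fintype.card ι = 8) : ¬ FixA P :=
  core_not_fixA hC e (spData (T8.zero_or_one hK)) h2 hn

theorem om_not_fixA (hK : Fintype.card K = 2) (hC : Core P) (e : Soc P ≃* POmega K (quadFormPlus 4 K))
    (h2 : (2 : F) ≠ 0) (hn : Fintype.card ι = 8) : ¬ FixA P := by
  rw [← coe_plusForm] at e
  exact core_not_fixA hC e (omData (K := K) (T8.zero_or_one hK)).spData h2 hn

/-- **`2.Sp₆(2)` in dimension 8 fixes a quadratic form.** -/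
theorem sp_fixQ [Finite F] (hK : Fintype.card K = 2) (hC : Core P) (p : ℕ) [Fact p.Prime] [CharP F p] (e : Soc P ≃* PSp 3 K)
    (h2 : (2 : F) ≠ 0) (hn : Fintype.card ι = 8) : FixQ P :=
  ((hC.forms_of_sd (T8.sp hK hC p e h2 (by omega)).2.1)).resolve_right (sp_not_fixA hK hC e h2 hn)

/-- **`2.Ω₈⁺(2)` in dimension 8 fixes a quadratic form.** -/
theorem om_fixQ [Finite F] (hK : Fintype.card K = 2) (hC : Core P) (p : ℕ) [Fact p.Prime] [CharP F p]
    (e : Soc P ≃* POmega K (quadFormPlus 4 K)) (h2 : (2 : F) ≠ 0) (hn : Fintype.card ι = 8) : FixQ P :=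
  ((hC.forms_of_sd (T8.om hK hC p e h2 (by omega)).2.1)).resolve_right (om_not_fixA hK hC e h2 hn)

end core

end Cfsg.Agent.H916.FP
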