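import Cfsg.Agent.H928.FrameF
import Cfsg.Agent.H886.Decomp

/-!
# Orthogonal frames: translation

`frame_maximal_free`: for a `Good` quadratic form over a finite field of odd characteristic and an orthogonal
decomposition into isometric lines, the stabiliser in `E Q` is maximal as soon as every subgroup `X` of
`GL (Fin t → F)` with `Base X` is monomial or contains all products of two reflections in vectors of norm `1`.
-/

set_option autoImplicit false
set_option linter.unusedSectionVars false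
set_option linter.unusedSimpArgs false
set_option linter.unusedVariables false

namespace Cfsg.Agent.H916.FrameIV

open QuadraticMap Cfsg.Agent.LieClassical.OrthCore Cfsg.Agent.LieClassical.OrthTrans
  Cfsg.Agent.LieClassical.OrthFinite Cfsg.Agent.LieClassical.OrthSimple Cfsg.Agent.H883.Bridge
  Cfsg.Agent.H883.Root Cfsg.Agent.H883.Sub Cfsg.Agent.H886.Decomp
open Matrix
open scoped commutatorElement
open Cfsg.Agent.H928

section Transfer

variable {F V W : Type*} [Field F] [AddCommGroup V] [Module F V] [AddCommGroup W] [Module F W]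

/-- conjugation by a linear equivalence -/
def conjE (e : W ≃ₗ[F] V) : (V ≃ₗ[F] V) ≃* (W ≃ₗ[F] W) where
  toFun g := (e.trans g).trans e.symm
  invFun h := (e.symm.trans h).trans e
  left_inv g := by
    apply LinearEquiv.ext
    intro x
    simp
  right_inv h := by
    apply LinearEquiv.ext
    intro x
    simp
  map_mul' a b := by
    apply LinearEquiv.ext
    intro x
    simp [LinearEquiv.mul_apply]

theorem conjE_apply (e : W ≃ₗ[F] V) (g : V ≃ₗ[F] V) (x : W) : conjE e g x = e.symm (g (e x)) := rfl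

theorem conjE_symm_apply (e : W ≃ₗ[F] V) (h : W ≃ₗ[F] W) (x : V) :
    (conjE e).symm h x = e (h (e.symm x)) := rfl

end Transfer

theorem cyc_eq_comm {ι : Type*} [DecidableEq ι] {i j k : ι} (hij : i ≠ j) (hik : i ≠ k) (hjk : j ≠ k) :
    cyc i j k = Equiv.swap j k * Equiv.swap i j * (Equiv.swap j k)⁻¹ * (Equiv.swap i j)⁻¹ := by
  rw [cyc, Equiv.swap_inv, Equiv.swap_inv]
  apply Equiv.ext
  intro a
  simp only [Equiv.Perm.mul_apply]
  have h1 : Equiv.swap j k i = i := Equiv.swap_apply_of_ne_of_ne hij hik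
  have h2 : Equiv.swap i j k = k := Equiv.swap_apply_of_ne_of_ne (Ne.symm hik) (Ne.symm hjk)
  by_cases ha : a = i
  · subst ha
    rw [h1, Equiv.swap_apply_left, Equiv.swap_apply_left, h2, Equiv.swap_apply_right]
  · by_cases hb : a = j
    · subst hb
      rw [Equiv.swap_apply_left, h2, Equiv.swap_apply_right, h1, Equiv.swap_apply_left,
        Equiv.swap_apply_left]
    · by_cases hc : a = k
      · subst hc
        rw [Equiv.swap_apply_right, Equiv.swap_apply_right, h2, Equiv.swap_apply_right,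
          Equiv.swap_apply_right, h1]
      · rw [Equiv.swap_apply_of_ne_of_ne hb hc, Equiv.swap_apply_of_ne_of_ne ha hb,
          Equiv.swap_apply_of_ne_of_ne hb hc, Equiv.swap_apply_of_ne_of_ne ha hb,
          Equiv.swap_apply_of_ne_of_ne hb hc]

section Fr

variable {F V : Type*} [Field F] [AddCommGroup V] [Module F V] {Q : QuadraticForm F V} {t : ℕ}
  {D : Fin t → Submodule F V}

/-- the data: an isometry (up to the factor `κ`) from the standard dot product -/
structure Fr (Q : QuadraticForm F V) (D : Fin t → Submodule F V) (e : (Fin t → F) ≃ₗ[F] V) (κ : F) :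
    Prop where
  two : (2 : F) ≠ 0
  ne : κ ≠ 0
  pol : ∀ x y, polar Q (e x) (e y) = 2 * κ * (x ⬝ᵥ y)
  line : ∀ i x, x ∈ D i ↔ ∃ c : F, x = c • e (ee F i)

theorem exists_fr [FiniteDimensional F V] (h2 : (2 : F) ≠ 0) (hQ : Nondeg Q) (ht : 0 < t)
    (horth : ∀ i j, i ≠ j → ∀ x ∈ D i, ∀ y ∈ D j, polar Q x y = 0) (hspan : iSup D = ⊤)
    (hrank : ∀ i, Module.finrank F (D i) = 1)
    (hiso : ∀ i j, ∃ e : D i ≃ₗ[F] D j, ∀ z : D i, Q (e z : V) = Q (z : V)) :
    ∃ (e : (Fin t → F) ≃ₗ[F] V) (κ : F), Fr Q D e κ := by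
  let i0 : Fin t := ⟨0, ht⟩
  obtain ⟨f0, hf0, hf0'⟩ : ∃ f0 : D i0, f0 ≠ 0 ∧ ∀ w : D i0, ∃ c : F, c • f0 = w :=
    finrank_eq_one_iff'.1 (hrank i0)
  choose E hE using fun i => hiso i0 i
  let f : Fin t → V := fun i => (E i f0 : V)
  have hfD : ∀ i, f i ∈ D i := fun i => (E i f0).2
  have hfl : ∀ i x, x ∈ D i ↔ ∃ c : F, x = c • f i := by
    intro i x
    constructor
    · intro hx
      obtain ⟨c, hc⟩ := hf0' ((E i).symm ⟨x, hx⟩)
      refine ⟨c, ?_⟩
      have := congrArg (E i) hc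
      rw [map_smul, LinearEquiv.apply_symm_apply] at this
      have := congrArg Subtype.val this
      exact this.symm
    · rintro ⟨c, rfl⟩
      exact (D i).smul_mem c (hfD i)
  have hfQ : ∀ i, Q (f i) = Q (f0 : V) := fun i => hE i f0
  have hκ : Q (f0 : V) ≠ 0 := by
    intro h0
    have hnd := nondegOn_of_orth hQ horth hspan i0
    have h1 : (f0 : V) = 0 := by
      refine hnd (f0 : V) f0.2 ?_
      intro y hy
      obtain ⟨c, hc⟩ := hf0' ⟨y, hy⟩
      have hc' : y = c • (f0 : V) := (congrArg Subtype.val hc).symm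
      rw [hc', polar_smul_right, polar_self', h0, mul_zero, smul_zero]
    exact hf0 (Subtype.ext h1)
  have hff : ∀ i j, polar Q (f i) (f j) = if i = j then 2 * Q (f0 : V) else 0 := by
    intro i j
    split_ifs with h
    · subst h; rw [polar_self', hfQ]
    · exact horth i j h _ (hfD i) _ (hfD j)
  let φ : (Fin t → F) →ₗ[F] V := Fintype.linearCombination F f
  have hφ : ∀ x, φ x = ∑ i, x i • f i := fun x => Fintype.linearCombination_apply F f x
  have hpol : ∀ x y, polar Q (φ x) (φ y) = 2 * Q (f0 : V) * (x ⬝ᵥ y) := by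
    intro x y
    have e1 : polar Q (φ x) (φ y) = polarBilin Q (φ x) (φ y) := rfl
    rw [e1, hφ, hφ, map_sum, dotProduct, Finset.mul_sum]
    refine Finset.sum_congr rfl fun i _ => ?_
    rw [map_sum, LinearMap.sum_apply, Finset.sum_eq_single i]
    · rw [polarBilin_apply_apply, polar_smul_left, polar_smul_right, hff, if_pos rfl]
      simp only [smul_eq_mul]; ring
    · intro j _ hj
      rw [polarBilin_apply_apply, polar_smul_left, polar_smul_right, hff, if_neg hj]
      simp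
    · intro h; exact absurd (Finset.mem_univ i) h
  have hinj : Function.Injective φ := by
    rw [injective_iff_map_eq_zero]
    intro x hx
    funext i
    have h1 := hpol x (ee F i)
    rw [hx, polar_zero_left, dot_ee] at h1
    exact ((mul_eq_zero.1 h1.symm).resolve_left (mul_ne_zero h2 hκ))
  have hsurj : Function.Surjective φ := by
    intro v
    have hv : v ∈ iSup D := by rw [hspan]; exact Submodule.mem_top
    have hle : iSup D ≤ LinearMap.range φ := by
      rw [iSup_le_iff]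
      intro i x hx
      obtain ⟨c, rfl⟩ := (hfl i x).1 hx
      refine ⟨c • ee F i, ?_⟩
      rw [map_smul, hφ, Finset.sum_eq_single i]
      · rw [ee_same, one_smul]
      · intro j _ hj
        rw [ee_ne hj, zero_smul]
      · intro h; exact absurd (Finset.mem_univ i) h
    exact hle hv
  refine ⟨LinearEquiv.ofBijective φ ⟨hinj, hsurj⟩, Q (f0 : V), h2, hκ, hpol, ?_⟩
  intro i x
  have e1 : (LinearEquiv.ofBijective φ ⟨hinj, hsurj⟩) (ee F i) = f i := by
    show φ (ee F i) = f i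
    rw [hφ, Finset.sum_eq_single i]
    · rw [ee_same, one_smul]
    · intro j _ hj
      rw [ee_ne hj, zero_smul]
    · intro h; exact absurd (Finset.mem_univ i) h
  rw [e1]
  exact hfl i x

variable {e : (Fin t → F) ≃ₗ[F] V} {κ : F}

namespace Fr

theorem Q_e (h : Fr Q D e κ) (x : Fin t → F) : Q (e x) = κ * (x ⬝ᵥ x) := by
  have h1 := h.pol x x
  rw [polar_self'] at h1
  have h2 : (2 : F) * (Q (e x) - κ * (x ⬝ᵥ x)) = 0 := by linear_combination h1
  linear_combination (mul_eq_zero.1 h2).resolve_left h.two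

theorem Q_ne (h : Fr Q D e κ) {u : Fin t → F} (hu : u ⬝ᵥ u = 1) : Q (e u) ≠ 0 := by
  rw [h.Q_e, hu, mul_one]; exact h.ne

theorem conj_refl (h : Fr Q D e κ) {u : Fin t → F} (hu : u ⬝ᵥ u = 1) :
    conjE e (refl Q (e u) (h.Q_ne hu)) = rf u := by
  apply LinearEquiv.ext
  intro x
  rw [conjE_apply, refl_apply, rf_apply hu, map_sub, map_smul, LinearEquiv.symm_apply_apply,
    LinearEquiv.symm_apply_apply, h.pol, h.Q_e, hu, dotProduct_comm x u]
  congr 2
  have := h.ne
  field_simp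

theorem iso_of_mem (h : Fr Q D e κ) {g : V ≃ₗ[F] V} (hg : g ∈ O Q) : IsIso (conjE e g) := by
  intro x y
  have h1 := polar_map hg (e x) (e y)
  have e1 : ∀ z, g (e z) = e (conjE e g z) := fun z => by
    rw [conjE_apply, LinearEquiv.apply_symm_apply]
  rw [e1, e1, h.pol, h.pol] at h1
  exact mul_left_cancel₀ (mul_ne_zero h.two h.ne) h1

theorem mem_O_of_iso (h : Fr Q D e κ) {k : (Fin t → F) ≃ₗ[F] (Fin t → F)} (hk : IsIso k) :
    (conjE e).symm k ∈ O Q := by
  rw [mem_O]
  intro v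
  rw [conjE_symm_apply, h.Q_e, hk]
  conv_rhs => rw [← e.apply_symm_apply v, h.Q_e]

theorem pm_mem_stab (h : Fr Q D e κ) (σ : Equiv.Perm (Fin t)) :
    (conjE e).symm (pm F σ) ∈ stabFamily D := by
  rw [mem_stabFamily]
  refine ⟨σ, fun i => ?_⟩
  ext x
  rw [Submodule.mem_map, h.line]
  constructor
  · rintro ⟨y, hy, rfl⟩
    obtain ⟨c, rfl⟩ := (h.line i y).1 hy
    refine ⟨c, ?_⟩
    show (conjE e).symm (pm F σ) (c • e (ee F i)) = _
    rw [conjE_symm_apply, map_smul, LinearEquiv.symm_apply_apply, map_smul, map_smul, pm_ee]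
  · rintro ⟨c, rfl⟩
    refine ⟨c • e (ee F i), (h.line i _).2 ⟨c, rfl⟩, ?_⟩
    show (conjE e).symm (pm F σ) (c • e (ee F i)) = _
    rw [conjE_symm_apply, map_smul, LinearEquiv.symm_apply_apply, map_smul, map_smul, pm_ee]

theorem base (h : Fr Q D e κ) (hG : Good Q) {p : Fin t → V →ₗ[F] V} (hd : Dec Q D p)
    {M : Subgroup (V ≃ₗ[F] V)} (h1 : stabFamily D ⊓ E Q ≤ M)
    (h2 : M ≤ E Q) : Base (M.map (conjE e).toMonoidHom) where
  two := h.two
  iso := by
    rintro _ ⟨g, hg, rfl⟩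
    exact h.iso_of_mem (E_le_O (h2 hg))
  hsg := by
    intro i j hij
    have hi : (ee F i : Fin t → F) ⬝ᵥ ee F i = 1 := ee_norm i
    have hj : (ee F j : Fin t → F) ⬝ᵥ ee F j = 1 := ee_norm j
    refine ⟨refl Q (e (ee F i)) (h.Q_ne hi) * refl Q (e (ee F j)) (h.Q_ne hj), h1 ?_, ?_⟩
    · refine hd.refl_mul_refl_mem hG (i := i) (j := j) ?_ ?_ _ _ ?_
      · exact (h.line i _).2 ⟨1, by rw [one_smul]⟩
      · exact (h.line j _).2 ⟨1, by rw [one_smul]⟩
      · rw [h.Q_e, h.Q_e, hi, hj]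
    · show conjE e _ = _
      rw [map_mul, h.conj_refl hi, h.conj_refl hj, rf_ee, rf_ee, sg_single_mul hij]
  hc3 := by
    intro i j k hij hik hjk
    refine ⟨(conjE e).symm (c3 F i j k), h1 ⟨h.pm_mem_stab _, ?_⟩, ?_⟩
    · have e1 : (conjE e).symm (c3 F i j k) =
          ⁅(conjE e).symm (pm F (Equiv.swap j k)), (conjE e).symm (pm F (Equiv.swap i j))⁆ := by
        rw [← map_commutatorElement]
        congr 1
        have e2 : ∀ σ τ : Equiv.Perm (Fin t), (pm F σ) * (pm F τ) * (pm F σ)⁻¹ * (pm F τ)⁻¹ =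
            pm F (σ * τ * σ⁻¹ * τ⁻¹) := by
          intro σ τ
          have e3 : ∀ σ : Equiv.Perm (Fin t), (pm F σ)⁻¹ = pm F σ⁻¹ := by
            intro σ
            rw [inv_eq_iff_mul_eq_one, ← pm_mul, mul_inv_cancel]
            apply ext_ee
            intro a
            rw [pm_ee]; rfl
          rw [e3, e3, pm_mul, pm_mul, pm_mul]
        rw [commutatorElement_def, e2, c3]
        congr 1
        exact cyc_eq_comm hij hik hjk
      rw [← hG.commutator_eq_E, e1]
      exact Subgroup.commutator_mem_commutator (h.mem_O_of_iso (pm_isIso _)) (h.mem_O_of_iso (pm_isIso _))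
    · show conjE e ((conjE e).symm _) = _
      exact (conjE e).apply_symm_apply _

theorem mem_stab_of_mono (h : Fr Q D e κ) [FiniteDimensional F V] {p : Fin t → V →ₗ[F] V}
    (hd : Dec Q D p) (hrank : ∀ i, Module.finrank F (D i) = 1) {g : V ≃ₗ[F] V}
    (hg : Mono (conjE e g)) : g ∈ stabFamily D := by
  obtain ⟨σ, hσ⟩ := hg
  refine hd.mem_stabFamily_of_forall (k := 1) one_pos hrank fun i => ⟨σ i, ?_⟩
  intro x hx
  obtain ⟨c, rfl⟩ := (h.line i x).1 hx
  have e1 : g (e (ee F i)) = e (conjE e g (ee F i)) := by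
    rw [conjE_apply, LinearEquiv.apply_symm_apply]
  rw [map_smul, e1, h.line]
  rcases hσ i with h1 | h1
  · exact ⟨c, by rw [h1]⟩
  · exact ⟨-c, by rw [h1, map_neg]; module⟩

theorem mono_of_mem_stab (h : Fr Q D e κ) {g : V ≃ₗ[F] V} (hg : g ∈ O Q) (hs : g ∈ stabFamily D) :
    Mono (conjE e g) := by
  obtain ⟨σ, hσ⟩ := hs
  apply mono_of_forall h.two
  intro i
  refine ⟨σ i, ?_⟩
  have h1 : g (e (ee F i)) ∈ D (σ i) := by
    rw [← hσ i]
    exact ⟨e (ee F i), (h.line i _).2 ⟨1, by rw [one_smul]⟩, rfl⟩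
  obtain ⟨c, hc⟩ := (h.line (σ i) _).1 h1
  have h2 := (mem_O.1 hg) (e (ee F i))
  rw [hc, QuadraticMap.map_smul, h.Q_e, h.Q_e, ee_norm, ee_norm] at h2
  have h3 : κ * (c ^ 2 - 1) = 0 := by
    simp only [smul_eq_mul] at h2
    linear_combination h2
  have h4 : c ^ 2 = 1 := by linear_combination (mul_eq_zero.1 h3).resolve_left h.ne
  rw [conjE_apply, hc, map_smul, LinearEquiv.symm_apply_apply]
  rcases sq_eq_one_iff_of_ne_zero' h4 with h5 | h5
  · left; rw [h5, one_smul]
  · right; rw [h5, neg_one_smul]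

/-- all products of two reflections in vectors of norm `1` generate `E Q` -/
theorem E_le (h : Fr Q D e κ) (hG : Good Q) (ht : 3 ≤ t) {M : Subgroup (V ≃ₗ[F] V)}
    (hr : ∀ u v : Fin t → F, u ⬝ᵥ u = 1 → v ⬝ᵥ v = 1 → rf u * rf v ∈ M.map (conjE e).toMonoidHom) :
    E Q ≤ M := by
  have hmem : ∀ g : V ≃ₗ[F] V, conjE e g ∈ M.map (conjE e).toMonoidHom → g ∈ M := by
    rintro g ⟨m, hm, hmg⟩
    have : m = g := (conjE e).injective hmg
    rwa [← this]
  let S : Set (V ≃ₗ[F] V) := {g | ∃ (u v : V) (hu : Q u ≠ 0) (hv : Q v ≠ 0), Q u = κ ∧ Q v = κ ∧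
    g = refl Q u hu * refl Q v hv}
  have hSM : S ⊆ M := by
    rintro _ ⟨u, v, hu, hv, hu1, hv1, rfl⟩
    have hu2 : e.symm u ⬝ᵥ e.symm u = 1 := by
      have := h.Q_e (e.symm u)
      rw [LinearEquiv.apply_symm_apply, hu1] at this
      have h3 : κ * (e.symm u ⬝ᵥ e.symm u - 1) = 0 := by linear_combination -this
      linear_combination (mul_eq_zero.1 h3).resolve_left h.ne
    have hv2 : e.symm v ⬝ᵥ e.symm v = 1 := by
      have := h.Q_e (e.symm v)
      rw [LinearEquiv.apply_symm_apply, hv1] at this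
      have h3 : κ * (e.symm v ⬝ᵥ e.symm v - 1) = 0 := by linear_combination -this
      linear_combination (mul_eq_zero.1 h3).resolve_left h.ne
    apply hmem
    have h3 := hr _ _ hu2 hv2
    rw [← h.conj_refl hu2, ← h.conj_refl hv2, ← map_mul] at h3
    simpa only [LinearEquiv.apply_symm_apply] using h3
  have hSE : S ⊆ E Q := by
    rintro _ ⟨u, v, hu, hv, hu1, hv1, rfl⟩
    exact hG.refl_mul_refl_mem hv hu (by rw [hu1, hv1])
  have hN : ∀ g ∈ E Q, ∀ n ∈ Subgroup.closure S, g * n * g⁻¹ ∈ Subgroup.closure S := by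
    intro g hg n hn
    induction hn using Subgroup.closure_induction with
    | mem x hx =>
      obtain ⟨u, v, hu, hv, hu1, hv1, rfl⟩ := hx
      have hgO := E_le_O hg
      have hu' : Q (g u) ≠ 0 := by rw [mem_O.1 hgO]; exact hu
      have hv' : Q (g v) ≠ 0 := by rw [mem_O.1 hgO]; exact hv
      apply Subgroup.subset_closure
      refine ⟨g u, g v, hu', hv', by rw [mem_O.1 hgO]; exact hu1, by rw [mem_O.1 hgO]; exact hv1, ?_⟩
      rw [← refl_conj hgO hu hu', ← refl_conj hgO hv hv']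
      group
    | one => simpa using Subgroup.one_mem _
    | mul x y _ _ hx hy =>
      have : g * (x * y) * g⁻¹ = (g * x * g⁻¹) * (g * y * g⁻¹) := by group
      rw [this]
      exact Subgroup.mul_mem _ hx hy
    | inv x _ hx =>
      have : g * x⁻¹ * g⁻¹ = (g * x * g⁻¹)⁻¹ := by group
      rw [this]
      exact Subgroup.inv_mem _ hx
  rcases good_normal_dichotomy hG ((Subgroup.closure_le _).2 hSE) hN with h1 | h1
  · exfalso
    let i0 : Fin t := ⟨0, by omega⟩
    let i1 : Fin t := ⟨1, by omega⟩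
    let i2 : Fin t := ⟨2, by omega⟩
    have h01 : i0 ≠ i1 := by simp [i0, i1]
    have h02 : i0 ≠ i2 := by simp [i0, i2]
    have h12 : i1 ≠ i2 := by simp [i1, i2]
    have hn0 : (ee F i0 : Fin t → F) ⬝ᵥ ee F i0 = 1 := ee_norm i0
    have hn1 : (ee F i1 : Fin t → F) ⬝ᵥ ee F i1 = 1 := ee_norm i1
    obtain ⟨c, hc⟩ := h1 _ (Subgroup.subset_closure ⟨e (ee F i0), e (ee F i1), h.Q_ne hn0, h.Q_ne hn1,
      by rw [h.Q_e, hn0, mul_one], by rw [h.Q_e, hn1, mul_one], rfl⟩)
    have hc' : ∀ x, rf (ee F i0) (rf (ee F i1) x) = c • x := by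
      intro x
      have h3 := hc (e x)
      rw [← LinearEquiv.mul_apply, ← h.conj_refl hn0, ← h.conj_refl hn1, ← map_mul, conjE_apply, h3,
        map_smul, LinearEquiv.symm_apply_apply]
    have h4 := congrFun (hc' (ee F i0)) i0
    have h5 := congrFun (hc' (ee F i2)) i2
    rw [rf_ee, rf_ee, sg_ee_not_mem (by simpa using h01), sg_ee_mem (by simp), Pi.neg_apply, Pi.smul_apply,
      ee_same, smul_eq_mul, mul_one] at h4
    rw [rf_ee, rf_ee, sg_ee_not_mem (by simpa using h12.symm), sg_ee_not_mem (by simpa using h02.symm),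
      Pi.smul_apply, ee_same, smul_eq_mul, mul_one] at h5
    rw [← h5] at h4
    exact h.two (by linear_combination -h4)
  · rw [← h1]
    exact (Subgroup.closure_le _).2 hSM

theorem not_E_le [Finite F] (h : Fr Q D e κ) (hG : Good Q) (ht : 4 ≤ t) : ¬ E Q ≤ stabFamily D := by
  intro hE
  obtain ⟨a, b, hab⟩ : ∃ a b : F, a ^ 2 + b ^ 2 = -1 := by
    have : Fintype F := Fintype.ofFinite F
    obtain ⟨q, hq⟩ := CharP.exists F
    have hq0 : NeZero q := ⟨fun h0 => by
      subst h0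
      exact (CharP.char_ne_zero_of_finite F 0) rfl⟩
    obtain ⟨a, b, hab⟩ := CharP.sq_add_sq F q (-1)
    exact ⟨a, b, by rw [hab]; simp⟩
  let i0 : Fin t := ⟨0, by omega⟩
  let i1 : Fin t := ⟨1, by omega⟩
  let i2 : Fin t := ⟨2, by omega⟩
  let i3 : Fin t := ⟨3, by omega⟩
  have h01 : i0 ≠ i1 := by simp [i0, i1]
  have h02 : i0 ≠ i2 := by simp [i0, i2]
  have h03 : i0 ≠ i3 := by simp [i0, i3]
  have h12 : i1 ≠ i2 := by simp [i1, i2]
  have h13 : i1 ≠ i3 := by simp [i1, i3]
  have h23 : i2 ≠ i3 := by simp [i2, i3]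
  let u : Fin t → F := a • ee F i0 + b • ee F i1 + ee F i2 + ee F i3
  have hu0 : u i0 = a := by
    simp only [u, Pi.add_apply, Pi.smul_apply, smul_eq_mul]
    rw [ee_same, ee_ne h01, ee_ne h02, ee_ne h03]; ring
  have hu1 : u i1 = b := by
    simp only [u, Pi.add_apply, Pi.smul_apply, smul_eq_mul]
    rw [ee_same, ee_ne h01.symm, ee_ne h12, ee_ne h13]; ring
  have hu2 : u i2 = 1 := by
    simp only [u, Pi.add_apply, Pi.smul_apply, smul_eq_mul]
    rw [ee_same, ee_ne h02.symm, ee_ne h12.symm, ee_ne h23]; ring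
  have hu3 : u i3 = 1 := by
    simp only [u, Pi.add_apply, Pi.smul_apply, smul_eq_mul]
    rw [ee_same, ee_ne h03.symm, ee_ne h13.symm, ee_ne h23.symm]; ring
  have hu : u ⬝ᵥ u = 1 := by
    have : u ⬝ᵥ u = a * u i0 + b * u i1 + u i2 + u i3 := by
      conv_lhs => rw [show u = a • ee F i0 + b • ee F i1 + ee F i2 + ee F i3 from rfl]
      rw [add_dotProduct, add_dotProduct, add_dotProduct, smul_dotProduct, smul_dotProduct, ee_dot,
        ee_dot, ee_dot, ee_dot]
      rfl
    rw [this, hu0, hu1, hu2, hu3]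
    linear_combination hab
  have hn2 : (ee F i2 : Fin t → F) ⬝ᵥ ee F i2 = 1 := ee_norm i2
  have hmem := hG.refl_mul_refl_mem (h.Q_ne hn2) (h.Q_ne hu) (by rw [h.Q_e, h.Q_e, hu, hn2])
  have hmono := h.mono_of_mem_stab (E_le_O hmem) (hE hmem)
  rw [map_mul, h.conj_refl hu, h.conj_refl hn2, rf_ee] at hmono
  have hmono2 : Mono (rf u) := by
    have := hmono.mul (sg_mono (F := F) {i2})
    rwa [mul_assoc, sg_mul_self, mul_one] at this
  obtain ⟨σ, hσ⟩ := hmono2
  have key : ∀ i j k : Fin t, j ≠ k → (rf u (ee F i)) j ≠ 0 → (rf u (ee F i)) k = 0 := by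
    intro i j k hjk hj
    rcases hσ i with h1 | h1
    · rw [h1] at hj ⊢
      by_cases hji : j = σ i
      · rw [ee_ne (show k ≠ σ i from fun hk => hjk (hji.trans hk.symm))]
      · exact absurd (ee_ne hji) hj
    · rw [h1, Pi.neg_apply] at hj ⊢
      by_cases hji : j = σ i
      · rw [ee_ne (show k ≠ σ i from fun hk => hjk (hji.trans hk.symm)), neg_zero]
      · exact absurd (by rw [ee_ne hji, neg_zero]) hj
  have hval : ∀ i j : Fin t, j ≠ i → (rf u (ee F i)) j = - (2 * u i * u j) := by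
    intro i j hij
    rw [rf_apply hu, Pi.sub_apply, Pi.smul_apply, ee_ne hij, ee_dot, smul_eq_mul]
    ring
  have hab0 : a ≠ 0 ∨ b ≠ 0 := by
    by_contra hcon
    push Not at hcon
    rw [hcon.1, hcon.2] at hab
    have : (1 : F) = 0 := by linear_combination hab
    exact one_ne_zero this
  rcases hab0 with ha | hb
  · have h1 := key i2 i3 i0 h03.symm
      (by rw [hval i2 i3 h23.symm, hu2, hu3, mul_one, mul_one]; exact neg_ne_zero.2 h.two)
    rw [hval i2 i0 h02, hu2, hu0, mul_one, neg_eq_zero] at h1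
    exact (mul_ne_zero h.two ha) h1
  · have h1 := key i2 i3 i1 h13.symm
      (by rw [hval i2 i3 h23.symm, hu2, hu3, mul_one, mul_one]; exact neg_ne_zero.2 h.two)
    rw [hval i2 i1 h12, hu2, hu1, mul_one, neg_eq_zero] at h1
    exact (mul_ne_zero h.two hb) h1

end Fr

/-- **Frames, coordinate free**: maximality from the dichotomy "monomial or all reflection products". -/
theorem frame_maximal_free [Finite F] [FiniteDimensional F V] (hG : Good Q) (h2 : (2 : F) ≠ 0)
    (horth : ∀ i j, i ≠ j → ∀ x ∈ D i, ∀ y ∈ D j, polar Q x y = 0) (hspan : iSup D = ⊤)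
    (hrank : ∀ i, Module.finrank F (D i) = 1)
    (hiso : ∀ i j, ∃ e : D i ≃ₗ[F] D j, ∀ z : D i, Q (e z : V) = Q (z : V)) (ht : 4 ≤ t)
    (hdich : ∀ X : Subgroup ((Fin t → F) ≃ₗ[F] (Fin t → F)), Base X → (∀ g ∈ X, Mono g) ∨
      (∀ u v : Fin t → F, u ⬝ᵥ u = 1 → v ⬝ᵥ v = 1 → rf u * rf v ∈ X)) :
    Cfsg.Geo.IsMaximalIn (E Q) (stabFamily D ⊓ E Q) := by
  obtain ⟨e, κ, h⟩ := exists_fr h2 hG.nondeg (by omega) horth hspan hrank hiso
  obtain ⟨p, hd⟩ := exists_dec hG.nondeg horth hspan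
  refine ⟨lt_of_le_of_ne inf_le_right fun heq => ?_, fun M hM1 hM2 => ?_⟩
  · apply h.not_E_le hG ht
    rw [← heq]
    exact inf_le_left
  · rcases hdich _ (h.base hG hd hM1 hM2) with h1 | h1
    · left
      refine le_antisymm (le_inf (fun g hg => ?_) hM2) hM1
      exact h.mem_stab_of_mono hd hrank (h1 _ ⟨g, hg, rfl⟩)
    · right
      exact le_antisymm hM2 (h.E_le hG (by omega) h1)

end Fr

section Geo

variable {ι : Type} [Fintype ι] [DecidableEq ι] {F : Type*} [Field F]

/-- **Frames**: maximality from the dichotomy "monomial or all reflection products". -/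
theorem frame_maximal [Fintype F] {Q : (ι → F) → F}
    (hQ : Cfsg.Geo.IsNondegenerateQuadraticForm Q) (h2 : (2 : F) ≠ 0)
    (hn : 5 ≤ Fintype.card ι) {t : ℕ}
    {D : Fin t → Submodule F (ι → F)} (hD : Cfsg.Geo.IsOrthogonalMDecomposition Q 1 D)
    (hdich : t = Fintype.card ι → ∀ X : Subgroup ((Fin t → F) ≃ₗ[F] (Fin t → F)), Base X →
      (∀ g ∈ X, Mono g) ∨ (∀ u v : Fin t → F, u ⬝ᵥ u = 1 → v ⬝ᵥ v = 1 → rf u * rf v ∈ X)) :
    Cfsg.Geo.IsMaximalIn (Cfsg.Geo.omegaGL Q)
      (Cfsg.Geo.decompositionStabilizer D ⊓ Cfsg.Geo.omegaGL Q) := by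
  refine decompositionStabilizer_maximal hQ hn D ?_
  rintro Q' rfl hG
  have horth : ∀ i j, i ≠ j → ∀ x ∈ D i, ∀ y ∈ D j, polar Q' x y = 0 :=
    fun i j hij x hx y hy => hD.decomp.orthogonal i j hij x hx y hy
  obtain ⟨e, κ, h⟩ := exists_fr h2 hG.nondeg (by have := hD.decomp.decomp.two_le; omega) horth
    hD.decomp.decomp.iSup_eq_top hD.decomp.decomp.finrank_eq (fun i j => hD.isometric i j)
  have ht : t = Fintype.card ι := by
    have := e.finrank_eq
    rwa [Module.finrank_fintype_fun_eq_card, Module.finrank_fintype_fun_eq_card, Fintype.card_fin] at this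
  exact frame_maximal_free hG h2 horth hD.decomp.decomp.iSup_eq_top hD.decomp.decomp.finrank_eq
    (fun i j => hD.isometric i j) (by omega) (hdich ht)

end Geo

end Cfsg.Agent.H916.FrameIV
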