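import Cfsg.Agent.H928.FrameF

/-!
# Orthogonal frames in odd dimension `≥ 5`: if all roots have support at most two, the group is
monomial
-/

set_option autoImplicit false
set_option linter.unusedSectionVars false
set_option linter.unusedSimpArgs false
set_option linter.unusedVariables false

namespace Cfsg.Agent.H916.FrameOdd

open Matrix
open Cfsg.Agent.H928

variable {ι : Type*} [Fintype ι] [DecidableEq ι] {F : Type*} [Field F]
variable {X : Subgroup ((ι → F) ≃ₗ[F] (ι → F))}

theorem sg_even (B : Base X) : ∀ (n : ℕ) (S : Finset ι), S.card = 2 * n → sg F S ∈ X := by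
  intro n
  induction n with
  | zero =>
    intro S hS
    rw [Finset.card_eq_zero.1 (show S.card = 0 by simpa using hS), sg_empty]
    exact X.one_mem
  | succ n ih =>
    intro S hS
    obtain ⟨i, hi⟩ := Finset.card_pos.1 (show 0 < S.card by omega)
    obtain ⟨j, hj⟩ := Finset.card_pos.1 (show 0 < (S.erase i).card by
      rw [Finset.card_erase_of_mem hi]; omega)
    have hji : j ≠ i := Finset.ne_of_mem_erase hj
    have hjS : j ∈ S := Finset.mem_of_mem_erase hj
    have h1 : ((S.erase i).erase j).card = 2 * n := by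
      rw [Finset.card_erase_of_mem hj, Finset.card_erase_of_mem hi]; omega
    have e : sg F S = sg F {i, j} * sg F ((S.erase i).erase j) := by
      rw [sg_mul]
      congr 1
      ext c
      simp only [Finset.mem_symmDiff, Finset.mem_insert, Finset.mem_singleton, Finset.mem_erase]
      constructor
      · intro hc
        by_cases h1 : c = i
        · exact Or.inl ⟨Or.inl h1, fun h => h.2.1 h1⟩
        · by_cases h2 : c = j
          · exact Or.inl ⟨Or.inr h2, fun h => h.1 h2⟩
          · exact Or.inr ⟨⟨h2, h1, hc⟩, fun h => h.elim h1 h2⟩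
      · rintro (⟨rfl | rfl, _⟩ | ⟨h, _⟩)
        · exact hi
        · exact hjS
        · exact h.2.2
    rw [e]
    exact X.mul_mem (B.hsg i j (Ne.symm hji)) (ih _ h1)

/-- in odd dimension every `g e_i` is a root -/
theorem root_apply (B : Base X) (hodd : Odd (Fintype.card ι)) {g : (ι → F) ≃ₗ[F] (ι → F)} (hg : g ∈ X)
    (i : ι) : Root X (g (ee F i)) := by
  have hI := B.iso g hg
  refine ⟨by rw [hI, ee_norm], fun k => ?_⟩
  obtain ⟨n, hn⟩ := hodd
  have hc : ∀ i : ι, sg F (Finset.univ.erase i) ∈ X := fun i => sg_even B n _ (by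
    rw [Finset.card_erase_of_mem (Finset.mem_univ i), Finset.card_univ]; omega)
  have hneg : ∀ (i : ι) (x : ι → F), sg F {i} x = - sg F (Finset.univ.erase i) x := by
    intro i x
    funext c
    rw [Pi.neg_apply, sg_apply, sg_apply]
    by_cases h : c = i
    · simp [h]
    · simp [h]
  have e : rf (g (ee F i)) * rf (ee F k) =
      (g * sg F (Finset.univ.erase i) * g⁻¹) * sg F (Finset.univ.erase k) := by
    rw [hI.map_rf (ee_norm i), rf_ee, rf_ee]
    apply LinearEquiv.ext
    intro x
    simp only [LinearEquiv.mul_apply]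
    rw [hneg k x, map_neg g⁻¹, map_neg, map_neg, hneg i, map_neg, neg_neg]
  rw [e]
  exact X.mul_mem (X.mul_mem (X.mul_mem hg (hc i)) (X.inv_mem hg)) (hc k)

section

variable (B : Base X) (hn : 5 ≤ Fintype.card ι) (hT : ∀ u, Root X u → Supp2 u)

include B hn hT

theorem half_of_root {u : ι → F} (hu : Root X u) {m l : ι} (hml : m ≠ l) (hm : u m ≠ 0) (hl : u l ≠ 0) :
    2 * (u l) ^ 2 = 1 := by
  have h0 : ∀ c, c ≠ m → c ≠ l → u c = 0 := fun c h1 h2 =>
    supp2_three (hT u hu) hml (Ne.symm h1) (Ne.symm h2) hm hl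
  have hu2 := eq_two_of_supp hml h0
  obtain ⟨p, hp⟩ := exists_not_mem ({m, l} : Finset ι) (lt_of_le_of_lt Finset.card_le_two (by omega))
  simp only [Finset.mem_insert, Finset.mem_singleton, not_or] at hp
  have h1 := B.root_c3 (by omega) hml (Ne.symm hp.1) (Ne.symm hp.2) hu
  have e1 : c3 F m l p u = (u m) • ee F l + (u l) • ee F p := by
    conv_lhs => rw [hu2]
    rw [map_add, map_smul, map_smul, c3_left hml (Ne.symm hp.1), c3_mid (Ne.symm hp.1) (Ne.symm hp.2)]
  rw [e1] at h1
  have h2 := B.root_rf hu h1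
  have e2 : ((u m) • ee F l + (u l) • ee F p) ⬝ᵥ u = u m * u l := by
    rw [add_dotProduct, smul_dotProduct, smul_dotProduct, ee_dot, ee_dot, h0 p hp.1 hp.2]
    simp
  have h3 := supp2_three (hT _ h2) (a := m) (b := p) (c := l) (Ne.symm hp.1) hml hp.2
  rw [rf_apply hu.1, e2] at h3
  simp only [Pi.sub_apply, Pi.add_apply, Pi.smul_apply, smul_eq_mul] at h3
  rw [ee_same, ee_ne hml, ee_ne (Ne.symm hp.1), ee_ne hp.2, ee_same, ee_ne (Ne.symm hp.2), h0 p hp.1 hp.2] at h3
  have h4 := h3 (by
      have : u m * 0 + u l * 0 - 2 * (u m * u l) * u m = - (2 * (u m * u l * u m)) := by ring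
      rw [this]
      exact neg_ne_zero.2 (mul_ne_zero B.two (mul_ne_zero (mul_ne_zero hm hl) hm)))
    (by simpa using hl)
  have h5 : u m * (1 - 2 * (u l) ^ 2) = 0 := by linear_combination h4
  have h6 := (mul_eq_zero.1 h5).resolve_left hm
  linear_combination -h6

/-- **odd dimension**: if all roots have support at most two, the group is monomial. -/
theorem mono_of_roots (hodd : Odd (Fintype.card ι)) (h3 : (3 : F) ≠ 0 ∨ ¬ IsSquare (2 : F)) :
    ∀ g ∈ X, Mono g := by
  intro g hg
  apply mono_of_forall B.two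
  intro i
  have hu := root_apply B hodd hg i
  set u := g (ee F i) with hudef
  have hune : u ≠ 0 := by
    intro h
    have := hu.1
    rw [h, zero_dotProduct] at this
    exact zero_ne_one this
  obtain ⟨a, ha⟩ := Function.ne_iff.1 hune
  rw [Pi.zero_apply] at ha
  have single : ∀ v : ι → F, v ⬝ᵥ v = 1 → ∀ a, (∀ c, c ≠ a → v c = 0) → v = ee F a ∨ v = - ee F a := by
    intro v hv a h
    have e : v = (v a) • ee F a := by
      funext c
      rw [Pi.smul_apply, smul_eq_mul]
      by_cases hc : c = a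
      · subst hc; rw [ee_same, mul_one]
      · rw [ee_ne hc, mul_zero, h c hc]
    have h1 : (v a) ^ 2 = 1 := by
      rw [e, smul_dotProduct, dotProduct_smul, ee_norm, smul_eq_mul, smul_eq_mul, mul_one] at hv
      linear_combination hv
    rcases sq_eq_one_iff_of_ne_zero' h1 with h2 | h2
    · left; rw [e, h2, one_smul]
    · right; rw [e, h2, neg_one_smul]
  by_cases hb : ∀ c, c ≠ a → u c = 0
  · exact ⟨a, single u hu.1 a hb⟩
  exfalso
  push Not at hb
  obtain ⟨b, hba, hb⟩ := hb
  have hsa := half_of_root B hn hT hu hba hb ha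
  have hsb := half_of_root B hn hT hu (Ne.symm hba) ha hb
  have h3' : (3 : F) ≠ 0 := by
    rcases h3 with h | h
    · exact h
    · exfalso
      apply h
      refine ⟨(u a)⁻¹, ?_⟩
      field_simp
      linear_combination hsa
  have h0 : ∀ c, c ≠ a → c ≠ b → u c = 0 := fun c h1 h2 =>
    supp2_three (hT u hu) (Ne.symm hba) (Ne.symm h1) (Ne.symm h2) ha hb
  have hu2 := eq_two_of_supp (Ne.symm hba) h0
  obtain ⟨p, hp⟩ := exists_not_mem ({a, b} : Finset ι) (lt_of_le_of_lt Finset.card_le_two (by omega))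
  simp only [Finset.mem_insert, Finset.mem_singleton, not_or] at hp
  have h1 := B.root_c3 (by omega) (Ne.symm hba) (Ne.symm hp.1) (Ne.symm hp.2) hu
  have e1 : c3 F a b p u = (u a) • ee F b + (u b) • ee F p := by
    conv_lhs => rw [hu2]
    rw [map_add, map_smul, map_smul, c3_left (Ne.symm hba) (Ne.symm hp.1), c3_mid (Ne.symm hp.1) (Ne.symm hp.2)]
  rw [e1] at h1
  set v : ι → F := (u a) • ee F b + (u b) • ee F p with hvdef
  have e2 : v ⬝ᵥ u = u a * u b := by
    rw [hvdef, add_dotProduct, smul_dotProduct, smul_dotProduct, ee_dot, ee_dot, h0 p hp.1 hp.2]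
    simp
  have hw : Root X (g⁻¹ v) := by
    apply B.root_map' (X.inv_mem hg) h1 hu
    rw [hudef, ← LinearEquiv.mul_apply, inv_mul_cancel]
    exact B.root_ee i
  have e3 : (g⁻¹ v) i = u a * u b := by
    rw [← e2, ← dot_ee (g⁻¹ v) i, ← B.iso g hg, ← hudef, ← LinearEquiv.mul_apply, mul_inv_cancel]
    rfl
  have h4 : 4 * ((g⁻¹ v) i) ^ 2 = 1 := by
    rw [e3]
    linear_combination 2 * (u b) ^ 2 * hsa + hsb
  have hwi : (g⁻¹ v) i ≠ 0 := by
    rw [e3]; exact mul_ne_zero ha hb
  by_cases hj : ∀ c, c ≠ i → (g⁻¹ v) c = 0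
  · have h5 : ((g⁻¹ v) i) ^ 2 = 1 := by
      rcases single _ hw.1 i hj with h | h <;> rw [h]
      · rw [ee_same]; ring
      · rw [Pi.neg_apply, ee_same]; ring
    apply h3'
    linear_combination h4 - 4 * h5
  · push Not at hj
    obtain ⟨j, hji, hj⟩ := hj
    have h5 := half_of_root B hn hT hw hji hj hwi
    apply one_ne_zero (α := F)
    linear_combination h4 - 2 * h5

end

end Cfsg.Agent.H916.FrameOdd
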