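import Cfsg.Agent.H928.FrameM

/-!
# Orthogonal frames, `p = 3`: either all roots have support at most two, or all vectors of norm `1` are roots
-/

set_option autoImplicit false
set_option linter.unusedSectionVars false
set_option linter.unusedSimpArgs false
set_option linter.unusedVariables false

namespace Cfsg.Agent.H916.FrameThree

open Matrix
open Cfsg.Agent.H928

variable {ι : Type*} [Fintype ι] [DecidableEq ι] {F : Type*} [Field F]
variable {X : Subgroup ((ι → F) ≃ₗ[F] (ι → F))}

theorem three_cases [Fintype F] (hF : Fintype.card F = 3) :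
    (3 : F) = 0 ∧ ∀ a : F, a = 0 ∨ a = 1 ∨ a = -1 := by
  have h3 : (3 : F) = 0 := by
    have := FiniteField.cast_card_eq_zero F
    rw [hF] at this
    exact_mod_cast this
  refine ⟨h3, fun a => ?_⟩
  have h := FiniteField.pow_card a
  rw [hF] at h
  have h1 : a * ((a - 1) * (a + 1)) = 0 := by linear_combination h
  rcases mul_eq_zero.1 h1 with h2 | h2
  · exact Or.inl h2
  · rcases mul_eq_zero.1 h2 with h3 | h3
    · exact Or.inr (Or.inl (by linear_combination h3))
    · exact Or.inr (Or.inr (by linear_combination h3))

section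

variable (h3 : (3 : F) = 0) (hc : ∀ a : F, a = 0 ∨ a = 1 ∨ a = -1)

include h3 hc

theorem sq_eq_ite (a : F) (h : a ≠ 0) : a * a = 1 := by
  rcases hc a with h1 | h1 | h1
  · exact absurd h1 h
  · rw [h1]; ring
  · rw [h1]; ring

theorem norm_eq (u : ι → F) : u ⬝ᵥ u = (sz u : F) := by
  classical
  unfold sz
  rw [dotProduct, Finset.card_eq_sum_ones, Nat.cast_sum, Finset.sum_filter]
  refine Finset.sum_congr rfl fun k _ => ?_
  by_cases hk : u k = 0
  · rw [if_neg (by simpa using hk), hk, mul_zero]
  · rw [if_pos hk, sq_eq_ite h3 hc _ hk, Nat.cast_one]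

/-- flipping the coordinates of `T` -/
theorem dot_flip (u : ι → F) (T : Finset ι) (hT : ∀ k ∈ T, u k ≠ 0) (h4 : T.card = 4) :
    (sg F T u) ⬝ᵥ u = u ⬝ᵥ u + 1 := by
  classical
  have h1 : (sg F T u) ⬝ᵥ u = u ⬝ᵥ u - 2 * ∑ k ∈ T, u k * u k := by
    have e1 : ∑ k ∈ T, u k * u k = ∑ k, if k ∈ T then u k * u k else 0 := by
      rw [← Finset.sum_filter, Finset.filter_mem_eq_inter, Finset.univ_inter]
    rw [dotProduct, dotProduct, e1, Finset.mul_sum, ← Finset.sum_sub_distrib]
    refine Finset.sum_congr rfl fun k _ => ?_
    rw [sg_apply]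
    split_ifs
    · ring
    · ring
  have h2 : ∑ k ∈ T, u k * u k = 4 := by
    rw [Finset.sum_congr rfl (fun k hk => sq_eq_ite h3 hc _ (hT k hk)), Finset.sum_const, h4]
    simp
  rw [h1, h2]
  linear_combination -3 * h3

/-- restricting to a subset of four elements of the support -/
theorem restrict (B : Base X) {u : ι → F} (hu : Root X u) (T : Finset ι) (hT : ∀ k ∈ T, u k ≠ 0)
    (h4 : T.card = 4) : Root X (fun k => if k ∈ T then u k else 0) := by
  classical
  have hv : Root X (sg F T u) := by
    obtain ⟨a, b, c, d, hab, hac, had, hbc, hbd, hcd, hTe⟩ := Finset.card_eq_four.1 h4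
    have e : sg F T = sg F {a, b} * sg F {c, d} := by
      rw [sg_mul]
      congr 1
      rw [hTe]
      ext k
      simp only [Finset.mem_symmDiff, Finset.mem_insert, Finset.mem_singleton]
      constructor
      · rintro (rfl | rfl | rfl | rfl)
        · exact Or.inl ⟨Or.inl rfl, fun h => h.elim hac had⟩
        · exact Or.inl ⟨Or.inr rfl, fun h => h.elim hbc hbd⟩
        · exact Or.inr ⟨Or.inl rfl, fun h => h.elim (Ne.symm hac) (Ne.symm hbc)⟩
        · exact Or.inr ⟨Or.inr rfl, fun h => h.elim (Ne.symm had) (Ne.symm hbd)⟩
      · rintro (⟨rfl | rfl, _⟩ | ⟨rfl | rfl, _⟩)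
        · exact Or.inl rfl
        · exact Or.inr (Or.inl rfl)
        · exact Or.inr (Or.inr (Or.inl rfl))
        · exact Or.inr (Or.inr (Or.inr rfl))
    rw [e, LinearEquiv.mul_apply]
    have hm : sg F {a, b} (sg F {c, d} u) = (sg F {a, b} * sg F {c, d}) u := rfl
    rw [hm]
    refine B.root_map' (X.mul_mem (B.hsg a b hab) (B.hsg c d hcd)) hu (B.root_ee a) ?_
    rw [LinearEquiv.mul_apply, sg_ee_not_mem (by simp [hac, had]), sg_ee_mem (by simp)]
    exact (B.root_ee a).neg
  have hr := B.root_rf hu hv
  have e : rf u (sg F T u) = fun k => if k ∈ T then u k else 0 := by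
    funext k
    rw [rf_apply hu.1, dot_flip h3 hc u T hT h4, hu.1, Pi.sub_apply, Pi.smul_apply, smul_eq_mul,
      sg_apply]
    by_cases hk : k ∈ T
    · rw [if_pos hk, if_pos hk]
      linear_combination (-2 * u k) * h3
    · rw [if_neg hk, if_neg hk]
      linear_combination (- u k) * h3
  rw [e] at hr
  exact hr

theorem sz_ite (u : ι → F) (T : Finset ι) (hT : ∀ k ∈ T, u k ≠ 0) :
    sz (fun k => if k ∈ T then u k else 0) = T.card := by
  classical
  unfold sz
  congr 1
  ext k
  simp only [Finset.mem_filter, Finset.mem_univ, true_and]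
  constructor
  · intro h
    by_contra hk
    exact h (by rw [if_neg hk])
  · intro hk
    rw [if_pos hk]
    exact hT k hk

/-- all vectors of size four are roots as soon as one is -/
theorem all_four (B : Base X) (hn : 6 ≤ Fintype.card ι) {u v : ι → F} (hu : Root X u) (h4 : sz u = 4)
    (hv4 : sz v = 4) : Root X v := by
  classical
  set S := Finset.univ.filter (fun k => u k ≠ 0) with hS
  set T := Finset.univ.filter (fun k => v k ≠ 0) with hT
  have hSc : S.card = 4 := by rw [← h4]; unfold sz; congr
  have hTc : T.card = 4 := by rw [← hv4]; unfold sz; congr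
  have hSm : ∀ k, k ∈ S ↔ u k ≠ 0 := fun k => by simp [hS]
  have hTm : ∀ k, k ∈ T ↔ v k ≠ 0 := fun k => by simp [hT]
  obtain ⟨e⟩ : Nonempty ({x // x ∈ S} ≃ {x // x ∈ T}) := by
    refine ⟨Fintype.equivOfCardEq ?_⟩
    rw [Fintype.card_coe, Fintype.card_coe, hSc, hTc]
  let σ : Equiv.Perm ι := e.extendSubtype
  obtain ⟨m, hm⟩ := exists_not_mem S (by omega)
  obtain ⟨n, hn'⟩ := exists_not_mem (insert m S) (lt_of_le_of_lt (Finset.card_insert_le _ _) (by omega))
  have hmn : m ≠ n := fun h => hn' (by rw [h]; exact Finset.mem_insert_self _ _)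
  have hnS : n ∉ S := fun h => hn' (Finset.mem_insert_of_mem h)
  have hm0 : u m = 0 := by by_contra h; exact hm ((hSm m).2 h)
  have hn0 : u n = 0 := by by_contra h; exact hnS ((hSm n).2 h)
  refine B.root_move (by omega) σ hu hmn hm0 hn0 fun k => ?_
  by_cases hk : k ∈ S
  · have h1 : σ k ∈ T := e.extendSubtype_mem k hk
    have h2 := (hTm _).1 h1
    have h3' := (hSm _).1 hk
    rcases hc (v (σ k)) with a | a | a
    · exact absurd a h2
    · rcases hc (u k) with b | b | b
      · exact absurd b h3'
      · left; rw [a, b]
      · right; rw [a, b, neg_neg]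
    · rcases hc (u k) with b | b | b
      · exact absurd b h3'
      · right; rw [a, b]
      · left; rw [a, b]
  · have h1 : σ k ∉ T := e.extendSubtype_not_mem k hk
    left
    have h2 : v (σ k) = 0 := by by_contra h; exact h1 ((hTm _).2 h)
    have h3' : u k = 0 := by by_contra h; exact hk ((hSm _).2 h)
    rw [h2, h3']

theorem all_roots (B : Base X) (h4 : ∀ v : ι → F, sz v = 4 → Root X v) :
    ∀ (n : ℕ) (x : ι → F), sz x = n → x ⬝ᵥ x = 1 → Root X x := by
  classical
  intro n
  induction n using Nat.strong_induction_on with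
  | _ n ih =>
    intro x hx hx1
    set S := Finset.univ.filter (fun k => x k ≠ 0) with hS
    have hSc : S.card = n := by rw [← hx]; unfold sz; congr
    have hSm : ∀ k, k ∈ S ↔ x k ≠ 0 := fun k => by simp [hS]
    have hcast : (n : F) = 1 := by rw [← hx, ← norm_eq h3 hc, hx1]
    by_cases hn4 : 4 ≤ n
    · obtain ⟨T, hTS, hT⟩ := Finset.exists_subset_card_eq (s := S) (n := 4) (by omega)
      obtain ⟨i, hi⟩ : ∃ i, i ∈ T := Finset.card_pos.1 (by omega)
      have hTx : ∀ k ∈ T, x k ≠ 0 := fun k hk => (hSm k).1 (hTS hk)
      let y : ι → F := fun k => if k ∈ T then (if k = i then - x k else x k) else 0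
      have hy4 : sz y = 4 := by
        rw [← hT, ← sz_ite h3 hc (fun k => if k = i then - x k else x k) T ?_]
        intro k hk
        split_ifs
        · exact neg_ne_zero.2 (hTx k hk)
        · exact hTx k hk
      have hy := h4 y hy4
      have hxy : x ⬝ᵥ y = -1 := by
        have e1 : x ⬝ᵥ y = ∑ k ∈ T, (if k = i then - (x k * x k) else x k * x k) := by
          rw [dotProduct, ← Finset.sum_subset (Finset.subset_univ T)]
          · refine Finset.sum_congr rfl fun k hk => ?_
            simp only [y, if_pos hk]
            split_ifs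
            · ring
            · rfl
          · intro k _ hk
            simp only [y, if_neg hk, mul_zero]
        rw [e1, ← Finset.add_sum_erase _ _ hi, if_pos rfl, sq_eq_ite h3 hc _ (hTx i hi)]
        have e2 : ∑ k ∈ T.erase i, (if k = i then - (x k * x k) else x k * x k) = 3 := by
          rw [Finset.sum_congr rfl (g := fun _ => (1 : F)) ?_]
          · rw [Finset.sum_const, Finset.card_erase_of_mem hi, hT]; simp
          · intro k hk
            rw [if_neg (Finset.ne_of_mem_erase hk)]
            exact sq_eq_ite h3 hc _ (hTx k (Finset.mem_of_mem_erase hk))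
        rw [e2]
        linear_combination h3
      have hr : ∀ k, rf y x k = if k ∈ T.erase i then 0 else x k * (if k = i then -1 else 1) := by
        intro k
        rw [rf_apply hy.1, hxy, Pi.sub_apply, Pi.smul_apply, smul_eq_mul]
        by_cases hki : k = i
        · have e1 : y k = - x k := by rw [hki]; simp [y, hi]
          rw [e1, if_neg (fun h => Finset.ne_of_mem_erase h hki), if_pos hki]
          ring
        · by_cases hkT : k ∈ T
          · have e1 : y k = x k := by simp [y, hkT, hki]
            rw [e1, if_pos (Finset.mem_erase.2 ⟨hki, hkT⟩)]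
            linear_combination (x k) * h3
          · have e1 : y k = 0 := by simp [y, hkT]
            rw [e1, if_neg (fun h => hkT (Finset.mem_of_mem_erase h)), if_neg hki]
            ring
      have hsz : sz (rf y x) = n - 3 := by
        have e1 : (Finset.univ.filter (fun k => rf y x k ≠ 0)) = S \ T.erase i := by
          ext k
          simp only [Finset.mem_filter, Finset.mem_univ, true_and, Finset.mem_sdiff]
          rw [hr k, hSm]
          by_cases hk : k ∈ T.erase i
          · simp [hk]
          · rw [if_neg hk]
            constructor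
            · intro h
              exact ⟨left_ne_zero_of_mul h, hk⟩
            · rintro ⟨h, _⟩
              apply mul_ne_zero h
              split_ifs
              · exact neg_ne_zero.2 one_ne_zero
              · exact one_ne_zero
        have e2 : sz (rf y x) = (S \ T.erase i).card := by
          rw [← e1]; unfold sz; congr
        rw [e2, Finset.card_sdiff_of_subset ((Finset.erase_subset _ _).trans hTS), Finset.card_erase_of_mem hi,
          hT, hSc]
      have hroot := ih (n - 3) (by omega) (rf y x) hsz (by rw [rf_isIso hy.1, hx1])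
      have h5 := B.root_rf hy hroot
      have e3 : rf y (rf y x) = x := by
        rw [← LinearEquiv.mul_apply, rf_mul_self hy.1]; rfl
      rwa [e3] at h5
    · -- small size
      have hn1 : n = 1 := by
        have h0 : n = 0 ∨ n = 1 ∨ n = 2 ∨ n = 3 := by omega
        rcases h0 with h | h | h | h
        · exfalso
          rw [h] at hcast
          simp at hcast
        · exact h
        · exfalso
          rw [h] at hcast
          have : (1 : F) = 0 := by push_cast at hcast; linear_combination hcast
          exact one_ne_zero this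
        · exfalso
          rw [h] at hcast
          push_cast at hcast
          rw [h3] at hcast
          exact zero_ne_one hcast
      obtain ⟨i, hi⟩ := Finset.card_eq_one.1 (hSc.trans hn1)
      have hx0 : ∀ k, k ≠ i → x k = 0 := by
        intro k hk
        by_contra h
        have := (hSm k).2 h
        rw [hi, Finset.mem_singleton] at this
        exact hk this
      have hxi : x i ≠ 0 := (hSm i).1 (by rw [hi]; exact Finset.mem_singleton_self i)
      rcases hc (x i) with h | h | h
      · exact absurd h hxi
      · have : x = ee F i := by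
          funext k
          by_cases hk : k = i
          · subst hk; rw [h, ee_same]
          · rw [hx0 k hk, ee_ne hk]
        rw [this]; exact B.root_ee i
      · have : x = - ee F i := by
          funext k
          rw [Pi.neg_apply]
          by_cases hk : k = i
          · subst hk; rw [h, ee_same]
          · rw [hx0 k hk, ee_ne hk, neg_zero]
        rw [this]; exact (B.root_ee i).neg

end

/-- **`p = 3`** -/
theorem three (B : Base X) [Fintype F] (hF : Fintype.card F = 3) (hn : 6 ≤ Fintype.card ι) :
    (∀ u, Root X u → Supp2 u) ∨ (∀ u : ι → F, u ⬝ᵥ u = 1 → Root X u) := by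
  classical
  obtain ⟨h3, hc⟩ := three_cases hF
  by_cases h : ∀ u, Root X u → Supp2 u
  · exact Or.inl h
  right
  push Not at h
  obtain ⟨u, hu, hu2⟩ := h
  have hne : Nonempty ι := Fintype.card_pos_iff.1 (by omega)
  have hsz3 : 3 ≤ sz u := by
    by_contra h
    exact hu2 (supp2_of_sz (by omega) hne)
  have hsz4 : 4 ≤ sz u := by
    rcases Nat.lt_or_ge (sz u) 4 with h | h
    · exfalso
      have h1 : sz u = 3 := by omega
      have h2 := hu.1
      rw [norm_eq h3 hc, h1] at h2
      push_cast at h2
      rw [h3] at h2
      exact zero_ne_one h2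
    · exact h
  obtain ⟨T, hTS, hT⟩ := Finset.exists_subset_card_eq (s := Finset.univ.filter (fun k => u k ≠ 0)) (n := 4)
    (by have := hsz4; unfold sz at this; convert this)
  have hTu : ∀ k ∈ T, u k ≠ 0 := fun k hk => (Finset.mem_filter.1 (hTS hk)).2
  have hw := restrict h3 hc B hu T hTu hT
  have hw4 := (sz_ite h3 hc u T hTu).trans hT
  intro x hx
  exact all_roots h3 hc B (fun v hv => all_four h3 hc B hn hw hw4 hv) (sz x) x rfl hx

end Cfsg.Agent.H916.FrameThree
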