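import Cfsg.Agent.H916.RootSL

/-!
Dickson's generation theorem for two opposite long root elements of an orthogonal group in odd
characteristic.
-/

set_option autoImplicit false

namespace Cfsg.Agent.H916.RootSL

open QuadraticMap Cfsg.Agent.LieClassical.OrthCore Cfsg.Agent.LieClassical.OrthTrans
  Cfsg.Agent.H883.Root
open scoped MatrixGroups

variable {F V : Type*} [Field F] [AddCommGroup V] [Module F V] {Q : QuadraticForm F V}
variable {U W X Y : V}

theorem closure_coe_eq_top (mu : F) :
    Subfield.closure ({⟨mu, Subfield.subset_closure rfl⟩} : Set (Subfield.closure ({mu} : Set F))) = ⊤ := by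
  have h := RingHom.map_field_closure (Subfield.closure ({mu} : Set F)).subtype
    ({⟨mu, Subfield.subset_closure rfl⟩} : Set (Subfield.closure ({mu} : Set F)))
  rw [Set.image_singleton, Subfield.subtype_apply] at h
  rw [eq_top_iff]
  rintro ⟨x, hx⟩ -
  have hx' := hx
  rw [← h, Subfield.mem_map] at hx'
  obtain ⟨y, hy, hyx⟩ := hx'
  have : y = ⟨x, hx⟩ := Subtype.ext hyx
  rwa [← this]

theorem closure_neg (lam : F) : Subfield.closure ({-lam} : Set F) = Subfield.closure {lam} := by
  apply le_antisymm
  · rw [Subfield.closure_le]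
    rintro x rfl
    exact neg_mem (Subfield.subset_closure rfl)
  · rw [Subfield.closure_le]
    rintro x rfl
    have : -(-x) ∈ Subfield.closure ({-x} : Set F) := neg_mem (Subfield.subset_closure rfl)
    rwa [neg_neg] at this

/-- **Dickson's generation theorem for opposite long root elements.** -/
theorem has_of_dickson [Finite F] (h2 : (2 : F) ≠ 0) (h : Dual Q U W X Y)
    {H : Subgroup (V ≃ₗ[F] V)} {lam : F} (hlam : lam ≠ 0) (h1 : Has Q H U W)
    (h3 : Has Q H X (lam • Y)) :
    (∀ t ∈ Subfield.closure ({lam} : Set F), Has Q H U (t • W)) ∨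
      (Nat.card (Subfield.closure ({lam} : Set F)) = 9 ∧ lam ^ 2 = -1) := by
  classical
  rw [← closure_neg lam]
  set mu : F := -lam with hmu
  have hmu0 : mu ≠ 0 := neg_ne_zero.2 hlam
  set K : Subfield F := Subfield.closure ({mu} : Set F) with hK
  let mu' : K := ⟨mu, Subfield.subset_closure rfl⟩
  let _ : Fintype K := Fintype.ofFinite K
  have hgen : Subfield.closure ({mu'} : Set K) = ⊤ := closure_coe_eq_top mu
  have h2K : (2 : K) ≠ 0 := by
    intro h0
    apply h2
    have := congrArg K.subtype h0
    rwa [map_ofNat, map_zero] at this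
  have hmu'0 : mu' ≠ 0 := fun h0 => hmu0 (congrArg (fun x : K => (x : F)) h0)
  have hp : ∀ s : F, polar Q U (s • W) = 0 := fun s => by
    rw [polar_smul_right, h.UW, smul_zero]
  have hp' : ∀ s : F, polar Q X (s • Y) = 0 := fun s => by
    rw [polar_smul_right, h.XY, smul_zero]
  rcases Cfsg.Agent.S0801.result (F := K) h2K mu' hmu'0 hgen with ⟨htop, -⟩ | ⟨h9, hsq, -⟩
  · left
    intro t ht
    let Psi : SL(2, K) →* (V ≃ₗ[F] V) := (psi h).comp (Matrix.SpecialLinearGroup.map K.subtype)
    have hle : (⊤ : Subgroup (SL(2, K))) ≤ H.comap Psi := by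
      rw [← htop, Subgroup.closure_le]
      rintro g (hg | hg)
      · have hg' : ((Matrix.SpecialLinearGroup.map K.subtype g : SL(2, F)) :
            Matrix (Fin 2) (Fin 2) F) = !![1, 0; 1, 1] := by
          rw [Matrix.SpecialLinearGroup.map_apply_coe, RingHom.mapMatrix_apply, hg]
          ext i j
          fin_cases i <;> fin_cases j <;> simp
        show psi h (Matrix.SpecialLinearGroup.map K.subtype g) ∈ H
        rw [psi_lower h _ hg' (hp 1)]
        exact (h1.congr rfl (one_smul F W).symm).mem h.hU (hp 1)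
      · have hg' : ((Matrix.SpecialLinearGroup.map K.subtype g : SL(2, F)) :
            Matrix (Fin 2) (Fin 2) F) = !![1, mu; 0, 1] := by
          rw [Matrix.SpecialLinearGroup.map_apply_coe, RingHom.mapMatrix_apply, hg]
          ext i j
          fin_cases i <;> fin_cases j <;> simp [mu']
        show psi h (Matrix.SpecialLinearGroup.map K.subtype g) ∈ H
        rw [psi_upper h _ hg' (hp' _)]
        exact (h3.congr rfl (by rw [hmu, neg_neg])).mem h.hX (hp' _)
    have hdet : Matrix.det (!![1, 0; (⟨t, ht⟩ : K), 1] : Matrix (Fin 2) (Fin 2) K) = 1 := by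
      simp [Matrix.det_fin_two]
    let g : SL(2, K) := ⟨!![1, 0; ⟨t, ht⟩, 1], hdet⟩
    have hg : psi h (Matrix.SpecialLinearGroup.map K.subtype g) ∈ H := hle (Subgroup.mem_top g)
    have hg' : ((Matrix.SpecialLinearGroup.map K.subtype g : SL(2, F)) :
        Matrix (Fin 2) (Fin 2) F) = !![1, 0; t, 1] := by
      rw [Matrix.SpecialLinearGroup.map_apply_coe, RingHom.mapMatrix_apply]
      ext i j
      fin_cases i <;> fin_cases j <;> simp [g]
    rw [psi_lower h _ hg' (hp t)] at hg
    exact ⟨h.hU, hp t, hg⟩
  · right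
    refine ⟨by rw [Nat.card_eq_fintype_card]; exact h9, ?_⟩
    have h5 := congrArg K.subtype hsq
    rw [map_pow, map_neg, map_one] at h5
    have h6 : mu ^ 2 = -1 := h5
    rw [hmu] at h6
    linear_combination h6

/-- Change of basis in a totally singular plane. -/
theorem Has.change {H : Subgroup (V ≃ₗ[F] V)} {U' W' : V} (hh : Has Q H U' W') (hW' : Q W' = 0)
    (hX : Q X = 0) (hY : Q Y = 0) (hXY : polar Q X Y = 0) {a b c d : F}
    (e1 : U' = a • X + b • Y) (e2 : W' = c • X + d • Y) : Has Q H X ((a * d - b * c) • Y) := by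
  have hp : polar Q X ((a * d - b * c) • Y) = 0 := by rw [polar_smul_right, hXY, smul_zero]
  refine ⟨hX, hp, ?_⟩
  have e : siegel Q X ((a * d - b * c) • Y) hX hp = siegel Q U' W' hh.sing hh.perp := by
    ext v
    rw [siegel_apply, siegel_apply, QuadraticMap.map_smul, hY, hW', polar_smul_left, e1, e2]
    simp only [polar_add_left, polar_smul_left, smul_eq_mul, mul_zero, zero_mul]
    module
  rw [e]
  exact hh.2.2

/-- The dual pair in the span of `U', W'`. -/
theorem exists_dual {U' W' : V} (hU : Q U = 0) (hW : Q W = 0) (hUW : polar Q U W = 0)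
    (hU' : Q U' = 0) (hW' : Q W' = 0) (hUW' : polar Q U' W' = 0)
    (hl : polar Q U U' * polar Q W W' - polar Q U W' * polar Q W U' ≠ 0) :
    ∃ X Y, Dual Q U W X Y ∧ U' = polar Q U U' • X + polar Q W U' • Y ∧
      W' = polar Q U W' • X + polar Q W W' • Y := by
  set p := polar Q U U' with hp
  set s := polar Q W W' with hs
  set q := polar Q U W' with hq
  set r := polar Q W U' with hr
  set l := p * s - q * r with hl'
  have hWU' : polar Q W' U' = 0 := by rw [polar_comm]; exact hUW'
  have hUU' : polar Q U' U' = 0 := polar_self_of_sing hU'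
  have hWW' : polar Q W' W' = 0 := polar_self_of_sing hW'
  refine ⟨l⁻¹ • (s • U' - r • W'), l⁻¹ • (p • W' - q • U'), ⟨hU, hW, ?_, ?_, hUW, ?_, ?_, ?_, ?_, ?_⟩,
    ?_, ?_⟩
  · rw [QuadraticMap.map_smul, sub_eq_add_neg, Q_add, QuadraticMap.map_neg, QuadraticMap.map_smul,
      QuadraticMap.map_smul, hU', hW', polar_neg_right, polar_smul_left, polar_smul_right, hUW']
    simp
  · rw [QuadraticMap.map_smul, sub_eq_add_neg, Q_add, QuadraticMap.map_neg, QuadraticMap.map_smul,
      QuadraticMap.map_smul, hU', hW', polar_neg_right, polar_smul_left, polar_smul_right, hWU']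
    simp
  · simp only [polar_smul_left, polar_smul_right, polar_sub_left, polar_sub_right, hUU', hWW',
      hUW', hWU', smul_eq_mul]
    ring
  · simp only [polar_smul_right, polar_sub_right, ← hp, ← hq, smul_eq_mul]
    rw [show s * p - r * q = l by rw [hl']; ring]
    exact inv_mul_cancel₀ hl
  · simp only [polar_smul_right, polar_sub_right, ← hr, ← hs, smul_eq_mul]
    exact inv_mul_cancel₀ hl
  · simp only [polar_smul_right, polar_sub_right, ← hp, ← hq, smul_eq_mul]
    ring
  · simp only [polar_smul_right, polar_sub_right, ← hr, ← hs, smul_eq_mul]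
    ring
  · match_scalars
    · field_simp
      rw [hl']; ring
    · field_simp
      ring
  · match_scalars
    · field_simp
      ring
    · field_simp
      rw [hl']; ring

end Cfsg.Agent.H916.RootSL
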