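import Cfsg.Agent.H883.Root
import Cfsg.Agent.S0801

/-!
Two opposite long root subgroups of an orthogonal group generate an `SL₂`; Dickson's generation theorem
for them.

`psi`: for totally singular pairs `(U, W)`, `(X, Y)` dual to each other, the homomorphism
`SL₂(F) → GL(V)` with `[1, 0; s, 1] ↦ siegel U (s • W)` and `[1, r; 0, 1] ↦ siegel X (-r • Y)`.
-/

set_option autoImplicit false

namespace Cfsg.Agent.H916.RootSL

open QuadraticMap Cfsg.Agent.LieClassical.OrthCore Cfsg.Agent.LieClassical.OrthTrans
  Cfsg.Agent.H883.Root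
open scoped MatrixGroups

variable {F V : Type*} [Field F] [AddCommGroup V] [Module F V] {Q : QuadraticForm F V}

/-- Two totally singular pairs dual to each other. -/
structure Dual (Q : QuadraticForm F V) (U W X Y : V) : Prop where
  hU : Q U = 0
  hW : Q W = 0
  hX : Q X = 0
  hY : Q Y = 0
  UW : polar Q U W = 0
  XY : polar Q X Y = 0
  UX : polar Q U X = 1
  WY : polar Q W Y = 1
  UY : polar Q U Y = 0
  WX : polar Q W X = 0

/-- The action of the matrix `[a, b; c, d]`. -/
def psiLin (Q : QuadraticForm F V) (U W X Y : V) (a b c d : F) : V →ₗ[F] V :=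
  LinearMap.id + (polarBilin Q X).smulRight ((d - 1) • U - b • Y)
    + (polarBilin Q Y).smulRight (b • X + (d - 1) • W)
    + (polarBilin Q U).smulRight ((a - 1) • X + c • W)
    + (polarBilin Q W).smulRight ((a - 1) • Y - c • U)

theorem psiLin_apply (U W X Y : V) (a b c d : F) (v : V) :
    psiLin Q U W X Y a b c d v = v + polar Q X v • ((d - 1) • U - b • Y)
      + polar Q Y v • (b • X + (d - 1) • W) + polar Q U v • ((a - 1) • X + c • W)
      + polar Q W v • ((a - 1) • Y - c • U) := by
  simp only [psiLin, LinearMap.add_apply, LinearMap.id_apply,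
    LinearMap.smulRight_apply, polarBilin_apply_apply]

variable {U W X Y : V}

theorem psiLin_comp (h : Dual Q U W X Y) (a b c d a' b' c' d' : F) (v : V) :
    psiLin Q U W X Y a b c d (psiLin Q U W X Y a' b' c' d' v) =
      psiLin Q U W X Y (a * a' + b * c') (a * b' + b * d') (c * a' + d * c') (c * b' + d * d') v := by
  have UU : polar Q U U = 0 := polar_self_of_sing h.hU
  have WW : polar Q W W = 0 := polar_self_of_sing h.hW
  have XX : polar Q X X = 0 := polar_self_of_sing h.hX
  have YY : polar Q Y Y = 0 := polar_self_of_sing h.hY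
  have UW := h.UW
  have XY := h.XY
  have UX := h.UX
  have WY := h.WY
  have UY := h.UY
  have WX := h.WX
  have WU : polar Q W U = 0 := by rw [polar_comm]; exact UW
  have YX : polar Q Y X = 0 := by rw [polar_comm]; exact XY
  have XU : polar Q X U = 1 := by rw [polar_comm]; exact UX
  have YW : polar Q Y W = 1 := by rw [polar_comm]; exact WY
  have YU : polar Q Y U = 0 := by rw [polar_comm]; exact UY
  have XW : polar Q X W = 0 := by rw [polar_comm]; exact WX
  simp only [psiLin_apply, polar_add_right, polar_sub_right, polar_smul_right, UU, WW, XX, YY, UW,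
    XY, UX, WY, UY, WX, WU, YX, XU, YW, YU, XW, smul_eq_mul, mul_zero, mul_one]
  module

theorem psiLin_one (v : V) : psiLin Q U W X Y 1 0 0 1 v = v := by
  rw [psiLin_apply]
  simp

/-- The homomorphism `SL₂(F) → End V`. -/
def psiEnd (h : Dual Q U W X Y) : SL(2, F) →* Module.End F V where
  toFun g := psiLin Q U W X Y (g 0 0) (g 0 1) (g 1 0) (g 1 1)
  map_one' := by
    ext v
    simp only [Matrix.SpecialLinearGroup.coe_one, Matrix.one_apply_eq]
    rw [Matrix.one_apply_ne (by decide), Matrix.one_apply_ne (by decide)]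
    exact psiLin_one v
  map_mul' g g' := by
    ext v
    rw [Module.End.mul_apply, psiLin_comp h]
    simp only [Matrix.SpecialLinearGroup.coe_mul, Matrix.mul_apply, Fin.sum_univ_two]

/-- The homomorphism `SL₂(F) → GL(V)`. -/
def psi (h : Dual Q U W X Y) : SL(2, F) →* (V ≃ₗ[F] V) :=
  (LinearMap.GeneralLinearGroup.generalLinearEquiv F V).toMonoidHom.comp (psiEnd h).toHomUnits

theorem psi_apply (h : Dual Q U W X Y) (g : SL(2, F)) (v : V) :
    psi h g v = psiLin Q U W X Y (g 0 0) (g 0 1) (g 1 0) (g 1 1) v := rfl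

theorem psi_lower (h : Dual Q U W X Y) (g : SL(2, F)) {s : F}
    (hg : (g : Matrix (Fin 2) (Fin 2) F) = !![1, 0; s, 1]) (hp : polar Q U (s • W) = 0) :
    psi h g = siegel Q U (s • W) h.hU hp := by
  ext v
  rw [psi_apply, psiLin_apply, siegel_apply, hg, QuadraticMap.map_smul, h.hW, polar_smul_left]
  simp only [Matrix.of_apply, Matrix.cons_val', Matrix.cons_val_zero, Matrix.cons_val_one,
    smul_eq_mul, mul_zero, zero_mul]
  module

theorem psi_upper (h : Dual Q U W X Y) (g : SL(2, F)) {r : F}
    (hg : (g : Matrix (Fin 2) (Fin 2) F) = !![1, r; 0, 1]) (hp : polar Q X ((-r) • Y) = 0) :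
    psi h g = siegel Q X ((-r) • Y) h.hX hp := by
  ext v
  rw [psi_apply, psiLin_apply, siegel_apply, hg, QuadraticMap.map_smul, h.hY, polar_smul_left]
  simp only [Matrix.of_apply, Matrix.cons_val', Matrix.cons_val_zero, Matrix.cons_val_one,
    smul_eq_mul, mul_zero, zero_mul]
  module

end Cfsg.Agent.H916.RootSL
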