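import Cfsg.Agent.H916.QuadLemmas
import Cfsg.Agent.H916.RootDickson

/-!
`F₀`-forms of a quadratic space `F^ι`: the embedding of `F₀^ι`, the quadratic form over `F₀`, and the set
of scalars `t` such that a group contains the root elements `siegel u (t w)`, `u, w` over `F₀`.
-/

set_option autoImplicit false

namespace Cfsg.Agent.H916.SubfForm

open QuadraticMap Cfsg.Agent.LieClassical.OrthCore Cfsg.Agent.LieClassical.OrthTrans
  Cfsg.Agent.LieClassical.OrthFinite Cfsg.Agent.H883.Bridge Cfsg.Agent.H883.Root Cfsg.Agent.H883.Sub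
  Cfsg.Agent.H916.QuadLemmas Cfsg.Agent.H916.RootSL

/-! ### Subfields of prime index -/

theorem natCard_eq_pow {F : Type*} [Field F] [Finite F] {K L : Subfield F} (h : K ≤ L) :
    ∃ a : ℕ, Nat.card L = Nat.card K ^ a := by
  letI : Algebra K L := (Subfield.inclusion h).toAlgebra
  exact ⟨_, Module.natCard_eq_pow_finrank (K := K) (V := L)⟩

theorem eq_of_natCard_eq {F : Type*} [Field F] [Finite F] {K L : Subfield F} (h : K ≤ L)
    (hc : Nat.card L ≤ Nat.card K) : K = L := by
  apply SetLike.coe_injective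
  apply Set.eq_of_subset_of_ncard_le h
  exact hc

theorem eq_or_eq_top {F : Type*} [Field F] [Finite F] {F₀ K : Subfield F} {r : ℕ} (hr : r.Prime)
    (hc : Nat.card F = Nat.card F₀ ^ r) (h : F₀ ≤ K) : K = F₀ ∨ K = ⊤ := by
  obtain ⟨a, ha⟩ := natCard_eq_pow h
  obtain ⟨b, hb⟩ := natCard_eq_pow (le_top : K ≤ ⊤)
  have htop : Nat.card (⊤ : Subfield F) = Nat.card F := Nat.card_congr Subfield.topEquiv.toEquiv
  have h1 : 1 < Nat.card F₀ := Finite.one_lt_card
  have hab : a * b = r := by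
    rw [htop, hc, ha, ← pow_mul] at hb
    exact (Nat.pow_right_injective h1 hb).symm
  have had : a ∣ r := ⟨b, hab.symm⟩
  rcases (Nat.dvd_prime hr).1 had with h2 | h2
  · left
    exact (eq_of_natCard_eq h (by rw [ha, h2, pow_one])).symm
  · right
    have hb1 : b = 1 := by
      rw [h2] at hab
      exact Nat.eq_of_mul_eq_mul_left hr.pos (by omega)
    exact eq_of_natCard_eq le_top (by rw [hb, hb1, pow_one])

/-! ### The embedding -/

variable {ι : Type} [Fintype ι] [DecidableEq ι] {F : Type*} [Field F]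

/-- A vector with entries in `F₀`, as a vector over `F`. -/
def emb (F₀ : Subfield F) (v : ι → F₀) : ι → F := fun i => (v i : F)

variable {F₀ : Subfield F}

omit [Fintype ι] [DecidableEq ι] in
theorem emb_add (u v : ι → F₀) : emb F₀ (u + v) = emb F₀ u + emb F₀ v := rfl

omit [Fintype ι] [DecidableEq ι] in
theorem emb_zero : emb F₀ (0 : ι → F₀) = 0 := rfl

omit [Fintype ι] [DecidableEq ι] in
theorem emb_neg (u : ι → F₀) : emb F₀ (-u) = -emb F₀ u := rfl

omit [Fintype ι] [DecidableEq ι] in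
theorem emb_sub (u v : ι → F₀) : emb F₀ (u - v) = emb F₀ u - emb F₀ v := rfl

omit [Fintype ι] [DecidableEq ι] in
theorem emb_smul (a : F₀) (u : ι → F₀) : emb F₀ (a • u) = (a : F) • emb F₀ u := rfl

omit [Fintype ι] [DecidableEq ι] in
theorem emb_injective : Function.Injective (emb F₀ : (ι → F₀) → ι → F) := by
  intro u v h
  funext i
  exact Subtype.ext (congrFun h i)

omit [Fintype ι] [DecidableEq ι] in
theorem emb_eq_zero {u : ι → F₀} : emb F₀ u = 0 ↔ u = 0 := by
  rw [← emb_zero, emb_injective.eq_iff]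

omit [Fintype ι] [DecidableEq ι] in
theorem mem_range_emb {v : ι → F} (h : ∀ i, v i ∈ F₀) : ∃ w : ι → F₀, emb F₀ w = v :=
  ⟨fun i => ⟨v i, h i⟩, rfl⟩

theorem emb_single (i : ι) : emb F₀ (Pi.single i (1 : F₀)) = Pi.single i 1 := by
  funext j
  by_cases h : j = i
  · subst h; simp [emb]
  · simp [emb, Pi.single_eq_of_ne h]

/-- Every vector is a combination of vectors over `F₀`. -/
theorem emb_induction {P : (ι → F) → Prop} (hadd : ∀ u v, P u → P v → P (u + v)) (h0 : P 0)
    (h : ∀ (c : F) (u : ι → F₀), P (c • emb F₀ u)) (v : ι → F) : P v := by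
  have e : v = ∑ i, v i • emb F₀ (Pi.single i (1 : F₀)) := by
    simp only [emb_single]
    funext j
    simp [Finset.sum_apply, Pi.single_apply]
  rw [e]
  exact Finset.sum_induction _ P hadd h0 fun i _ => h _ _

/-- `Q₀` is the form `Q` on the `F₀`-structure. -/
def IsForm (F₀ : Subfield F) (Q : QuadraticForm F (ι → F)) (Q₀ : QuadraticForm F₀ (ι → F₀)) : Prop :=
  ∀ v, Q (emb F₀ v) = (Q₀ v : F)

section Form

variable {Q : QuadraticForm F (ι → F)} {Q₀ : QuadraticForm F₀ (ι → F₀)}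

omit [Fintype ι] [DecidableEq ι] in
theorem IsForm.polar_emb (h : IsForm F₀ Q Q₀) (u v : ι → F₀) :
    polar Q (emb F₀ u) (emb F₀ v) = (polar Q₀ u v : F₀) := by
  simp only [polar, ← emb_add, h _]
  rfl

omit [Fintype ι] [DecidableEq ι] in
theorem IsForm.eq_zero_iff (h : IsForm F₀ Q Q₀) {v : ι → F₀} : Q (emb F₀ v) = 0 ↔ Q₀ v = 0 := by
  rw [h]
  exact ZeroMemClass.coe_eq_zero

omit [Fintype ι] [DecidableEq ι] in
theorem IsForm.polar_eq_zero_iff (h : IsForm F₀ Q Q₀) {u v : ι → F₀} :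
    polar Q (emb F₀ u) (emb F₀ v) = 0 ↔ polar Q₀ u v = 0 := by
  rw [h.polar_emb]
  exact ZeroMemClass.coe_eq_zero

omit [Fintype ι] [DecidableEq ι] in
/-- The form over `F₀`. -/
theorem exists_isForm (Q : QuadraticForm F (ι → F)) (h : ∀ v : ι → F₀, Q (emb F₀ v) ∈ F₀) :
    ∃ Q₀ : QuadraticForm F₀ (ι → F₀), IsForm F₀ Q Q₀ := by
  have hp : ∀ u v : ι → F₀, polar Q (emb F₀ u) (emb F₀ v) ∈ F₀ := by
    intro u v
    rw [polar, ← emb_add]
    exact sub_mem (sub_mem (h _) (h _)) (h _)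
  let B : LinearMap.BilinMap F₀ (ι → F₀) F₀ :=
    LinearMap.mk₂ F₀ (fun u v => (⟨polar Q (emb F₀ u) (emb F₀ v), hp u v⟩ : F₀))
      (fun x y v => Subtype.ext (by
        show polar Q (emb F₀ (x + y)) (emb F₀ v) = _
        rw [emb_add, polar_add_left]; rfl))
      (fun c x v => Subtype.ext (by
        show polar Q (emb F₀ (c • x)) (emb F₀ v) = _
        rw [emb_smul, polar_smul_left]; rfl))
      (fun v x y => Subtype.ext (by
        show polar Q (emb F₀ v) (emb F₀ (x + y)) = _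
        rw [emb_add, polar_add_right]; rfl))
      (fun c v x => Subtype.ext (by
        show polar Q (emb F₀ v) (emb F₀ (c • x)) = _
        rw [emb_smul, polar_smul_right]; rfl))
  refine ⟨⟨fun v => ⟨Q (emb F₀ v), h v⟩, fun c v => Subtype.ext ?_, ⟨B, fun x y => Subtype.ext ?_⟩⟩,
    fun v => rfl⟩
  · show Q (emb F₀ (c • v)) = _
    rw [emb_smul, QuadraticMap.map_smul]; rfl
  · show Q (emb F₀ (x + y)) = Q (emb F₀ x) + Q (emb F₀ y) + polar Q (emb F₀ x) (emb F₀ y)
    rw [emb_add, polar]; ring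

theorem IsForm.nondeg (h : IsForm F₀ Q Q₀) (hQ : Nondeg Q) : Nondeg Q₀ := by
  intro x hx
  have h1 : emb F₀ x = 0 := by
    apply hQ
    intro y
    refine emb_induction (F₀ := F₀) (P := fun y => polar Q (emb F₀ x) y = 0)
      (fun u v hu hv => by rw [polar_add_right, hu, hv, add_zero]) (polar_zero_right Q _)
      (fun c u => ?_) y
    rw [polar_smul_right, h.polar_emb, hx]
    simp
  exact emb_eq_zero.1 h1

theorem IsForm.good [Finite F] (h : IsForm F₀ Q Q₀) (hQ : Nondeg Q) (hd : 5 ≤ Fintype.card ι) :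
    Good Q₀ := good_of_card (h.nondeg hQ) hd

/-! ### Root elements over `F₀` -/

/-- `M` contains the Siegel transformations of the `F₀`-structure. -/
def HasF (Q : QuadraticForm F (ι → F)) (Q₀ : QuadraticForm F₀ (ι → F₀))
    (M : Subgroup ((ι → F) ≃ₗ[F] (ι → F))) : Prop :=
  ∀ u w : ι → F₀, Q₀ u = 0 → polar Q₀ u w = 0 → Has Q M (emb F₀ u) (emb F₀ w)

variable {M : Subgroup ((ι → F) ≃ₗ[F] (ι → F))}

omit [Fintype ι] [DecidableEq ι] in
theorem exists_lift (h : IsForm F₀ Q Q₀) (hM : HasF Q Q₀ M) {g₀ : (ι → F₀) ≃ₗ[F₀] (ι → F₀)}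
    (hg₀ : g₀ ∈ E Q₀) : ∃ g ∈ M, g ∈ O Q ∧ ∀ v, g (emb F₀ v) = emb F₀ (g₀ v) := by
  induction hg₀ using Subgroup.closure_induction with
  | mem x hx =>
    obtain ⟨u, w, hu, hw, rfl⟩ := hx
    have hh := hM u w hu hw
    refine ⟨_, hh.2.2, siegel_mem_O hh.sing hh.perp, fun v => ?_⟩
    rw [siegel_apply, siegel_apply, h.polar_emb, h.polar_emb, h w]
    rfl
  | one => exact ⟨1, M.one_mem, (O Q).one_mem, fun v => rfl⟩
  | mul x y _ _ hx hy =>
    obtain ⟨g, hg, hgO, e⟩ := hx
    obtain ⟨g', hg', hgO', e'⟩ := hy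
    refine ⟨g * g', M.mul_mem hg hg', (O Q).mul_mem hgO hgO', fun v => ?_⟩
    show g (g' (emb F₀ v)) = _
    rw [e', e]
    rfl
  | inv x _ hx =>
    obtain ⟨g, hg, hgO, e⟩ := hx
    refine ⟨g⁻¹, M.inv_mem hg, (O Q).inv_mem hgO, fun v => ?_⟩
    have h1 : x (x⁻¹ v) = v := LinearEquiv.apply_symm_apply x v
    have h2 : g (emb F₀ (x⁻¹ v)) = emb F₀ v := by rw [e, h1]
    rw [← h2]
    exact LinearEquiv.symm_apply_apply g _

/-- A root pair: singular, orthogonal, independent. -/
structure Root (Q₀ : QuadraticForm F₀ (ι → F₀)) (u w : ι → F₀) : Prop where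
  hu : Q₀ u = 0
  hw : Q₀ w = 0
  huw : polar Q₀ u w = 0
  hu0 : u ≠ 0
  hind : ∀ c : F₀, w ≠ c • u

/-- One root element with parameter `t` gives all of them. -/
theorem has_of_root [Finite F] (h : IsForm F₀ Q Q₀) (hQ : Nondeg Q) (hd : 7 ≤ Fintype.card ι)
    (hM : HasF Q Q₀ M) {u w x y : ι → F₀} (r : Root Q₀ u w) (r' : Root Q₀ x y) {t : F}
    (ht : Has Q M (emb F₀ u) (t • emb F₀ w)) : Has Q M (emb F₀ x) (t • emb F₀ y) := by
  obtain ⟨g₀, hg₀, e1, c, e2⟩ := trans_root (h.good hQ (by omega))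
    (by rw [Module.finrank_fintype_fun_eq_card]; exact hd) r.hu r.hw r.huw r.hu0 r.hind r'.hu r'.hw
    r'.huw r'.hu0 r'.hind
  obtain ⟨g, hg, hgO, e⟩ := exists_lift h hM hg₀
  have h1 := ht.map hgO hg
  rw [map_smul, e, e, e1, e2, emb_add, emb_smul] at h1
  have h2 := h1.add_smul_self (-(t * (c : F)))
  refine h2.congr rfl ?_
  module

/-- The scalars `t` such that all root elements over `F₀` with parameter `t` are in `M`. -/
def TSet (Q : QuadraticForm F (ι → F)) (Q₀ : QuadraticForm F₀ (ι → F₀))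
    (M : Subgroup ((ι → F) ≃ₗ[F] (ι → F))) : Set F :=
  {t | ∀ u w, Root Q₀ u w → Has Q M (emb F₀ u) (t • emb F₀ w)}

omit [DecidableEq ι] in
theorem mul_mem_TSet [Finite F] (h : IsForm F₀ Q Q₀) (hQ : Nondeg Q₀) (hd : 7 ≤ Fintype.card ι)
    {s t : F} (hs : s ∈ TSet Q Q₀ M) (ht : t ∈ TSet Q Q₀ M) : s * t ∈ TSet Q Q₀ M := by
  intro u w r
  obtain ⟨a, b, hab, h1, h2, h3, h4⟩ := exists_hyp_of_root hQ
    (by rw [Module.finrank_fintype_fun_eq_card]; exact hd) r.hu r.hw r.huw r.hu0 r.hind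
  -- `Has u (s a)` and `Has b (t w)`
  have ra : Root Q₀ u a := ⟨r.hu, hab.left, h1, r.hu0, fun c hc => by
    have := hab.pair
    rw [hc, polar_smul_left, h2, smul_zero] at this
    exact zero_ne_one this⟩
  have rb : Root Q₀ b w := ⟨hab.right, r.hw, by rw [polar_comm]; exact h4, hab.right_ne, fun c hc => by
    have h5 := h3
    rw [hc, polar_smul_left, hab.pair', smul_eq_mul, mul_one] at h5
    rw [h5, zero_smul] at hc
    exact r.hind 0 (by rw [hc, zero_smul])⟩
  have k1 := hs u a ra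
  have k2 := ht b w rb
  have z1 : polar Q (emb F₀ b) (emb F₀ u) = 0 := by
    rw [h.polar_eq_zero_iff, polar_comm]; exact h2
  have z2 : polar Q (t • emb F₀ w) (emb F₀ u) = 0 := by
    rw [polar_smul_left, h.polar_eq_zero_iff.2 (by rw [polar_comm]; exact r.huw), smul_zero]
  have z3 : Q (t • emb F₀ w) = 0 := by
    rw [QuadraticMap.map_smul, h.eq_zero_iff.2 r.hw, smul_zero]
  have z4 : polar Q (t • emb F₀ w) (s • emb F₀ a) = 0 := by
    rw [polar_smul_left, polar_smul_right, h.polar_eq_zero_iff.2 h3]; simp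
  have k3 := k2.comm' k1 z1 z2 z3 z4
  refine k3.congr rfl ?_
  rw [polar_smul_right, h.polar_emb, hab.pair']
  simp [smul_smul]

omit [Fintype ι] [DecidableEq ι] in
theorem mem_TSet_of_mem (h : IsForm F₀ Q Q₀) (hM : HasF Q Q₀ M) {t : F} (ht : t ∈ F₀) :
    t ∈ TSet Q Q₀ M := by
  intro u w r
  have h1 := hM u ((⟨t, ht⟩ : F₀) • w) r.hu (by rw [polar_smul_right, r.huw, smul_zero])
  exact h1.congr rfl rfl

/-- The scalars `t` form a subfield. -/
def TField [Finite F] (h : IsForm F₀ Q Q₀) (hQ : Nondeg Q₀) (hd : 7 ≤ Fintype.card ι)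
    (hM : HasF Q Q₀ M) : Subfield F where
  carrier := TSet Q Q₀ M
  mul_mem' := mul_mem_TSet h hQ hd
  one_mem' := mem_TSet_of_mem h hM F₀.one_mem
  add_mem' {s t} hs ht := fun u w r => ((hs u w r).add (ht u w r)).congr rfl (by rw [add_smul])
  zero_mem' := mem_TSet_of_mem h hM F₀.zero_mem
  neg_mem' {s} hs := fun u w r => (hs u w r).neg.congr rfl (by rw [neg_smul])
  inv_mem' s hs := by
    classical
    have := Fintype.ofFinite F
    by_cases h0 : s = 0
    · subst h0
      rw [inv_zero]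
      exact mem_TSet_of_mem h hM F₀.zero_mem
    · have hpow : ∀ n : ℕ, s ^ n ∈ TSet Q Q₀ M := by
        intro n
        induction n with
        | zero => rw [pow_zero]; exact mem_TSet_of_mem h hM F₀.one_mem
        | succ n ih => rw [pow_succ]; exact mul_mem_TSet h hQ hd ih hs
      have h1 : s⁻¹ = s ^ (Fintype.card F - 2) := by
        have h2 := FiniteField.pow_card_sub_one_eq_one s h0
        have h3 : 2 ≤ Fintype.card F := Fintype.one_lt_card
        have h4 : Fintype.card F - 1 = (Fintype.card F - 2) + 1 := by omega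
        rw [h4, pow_succ] at h2
        exact inv_eq_of_mul_eq_one_left h2
      rw [h1]
      exact hpow _

/-- **If one root element has a parameter outside `F₀`, then `M` contains `E Q`.** -/
theorem E_le_of_param [Finite F] (h : IsForm F₀ Q Q₀) (hQ : Nondeg Q) (hd : 7 ≤ Fintype.card ι)
    {r : ℕ} (hr : r.Prime) (hc : Nat.card F = Nat.card F₀ ^ r) (hM : HasF Q Q₀ M) {u w : ι → F₀}
    (hroot : Root Q₀ u w) {t : F} (ht : t ∉ F₀) (hh : Has Q M (emb F₀ u) (t • emb F₀ w)) :
    E Q ≤ M := by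
  have hQ₀ := h.nondeg hQ
  have hG₀ := h.good hQ (by omega)
  have htT : t ∈ TField h hQ₀ hd hM := fun x y r' => has_of_root h hQ hd hM hroot r' hh
  have htop : TField h hQ₀ hd hM = ⊤ := by
    rcases eq_or_eq_top hr hc (K := TField h hQ₀ hd hM)
      (fun s hs => mem_TSet_of_mem h hM hs) with h1 | h1
    · rw [h1] at htT
      exact absurd htT ht
    · exact h1
  have hall : ∀ (s : F) (u w : ι → F₀), Q₀ u = 0 → Q₀ w = 0 → polar Q₀ u w = 0 →
      Has Q M (emb F₀ u) (s • emb F₀ w) := by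
    intro s u w hu hw huw
    by_cases hu0 : u = 0
    · subst hu0
      exact has_zero_left _
    by_cases hind : ∀ c : F₀, w ≠ c • u
    · have : s ∈ TField h hQ₀ hd hM := by rw [htop]; trivial
      exact this u w ⟨hu, hw, huw, hu0, hind⟩
    · push Not at hind
      obtain ⟨c, rfl⟩ := hind
      rw [emb_smul, smul_smul]
      exact has_self (h.eq_zero_iff.2 hu) _
  have hfull : ∀ u : ι → F₀, Q₀ u = 0 → u ≠ 0 → Full Q M (emb F₀ u) := by
    intro u hu hu0
    refine ⟨h.eq_zero_iff.2 hu, fun x hx => ?_⟩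
    obtain ⟨u', hu'⟩ := exists_hyp hQ₀ hu hu0
    -- vectors over `F₀` orthogonal to `u`
    have hS : ∀ (s : F) (v : ι → F₀), polar Q₀ u v = 0 → Has Q M (emb F₀ u) (s • emb F₀ v) := by
      intro s v hv
      refine perp_induction hG₀ hu hu0 (P := fun v => Has Q M (emb F₀ u) (s • emb F₀ v))
        (fun a c ha hc => (ha.add hc).congr rfl (by rw [emb_add, smul_add])) (fun c => ?_)
        (fun a ha h1 => hall s u a hu ha h1) hv
      rw [emb_smul, smul_smul]
      exact has_self (h.eq_zero_iff.2 hu) _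
    -- every vector is, modulo a multiple of `u'`, one with a Siegel transformation in `M`
    have hind : ∀ x : ι → F, Has Q M (emb F₀ u) (x - polar Q (emb F₀ u) x • emb F₀ u') := by
      intro x
      refine emb_induction (F₀ := F₀)
        (P := fun x => Has Q M (emb F₀ u) (x - polar Q (emb F₀ u) x • emb F₀ u'))
        (fun a b ha hb => (ha.add hb).congr rfl ?_) ?_ (fun c v => ?_) x
      · rw [polar_add_right]; module
      · rw [polar_zero_right, zero_smul, sub_zero]
        exact has_zero (h.eq_zero_iff.2 hu)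
      · have h1 := hS c (v - polar Q₀ u v • u') (by
          rw [polar_sub_right, polar_smul_right, hu'.pair]; simp)
        refine h1.congr rfl ?_
        rw [emb_sub, emb_smul, polar_smul_right, h.polar_emb, smul_eq_mul]
        module
    have h1 := hind x
    rwa [hx, zero_smul, sub_zero] at h1
  obtain ⟨u', hu'⟩ := exists_hyp hQ₀ hroot.hu hroot.hu0
  refine E_le_of_full_pair (good_of_card hQ (by omega)) (hfull u hroot.hu hroot.hu0)
    (hfull u' hu'.right hu'.right_ne) ?_
  rw [h.polar_emb, hu'.pair]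
  simp

end Form

end Cfsg.Agent.H916.SubfForm
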